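import Cfsg.Agent.H58.Rank3
import Cfsg.Agent.H16.HSGroup
import Cfsg.Agent.H55.CfgThm

/-! Rank 3 groups of degree 100 with subdegrees 22 and 77. -/

set_option autoImplicit false

namespace Cfsg.Agent.H58.R3

open MulAction Matrix

theorem srg_100 {V : Type*} [Fintype V] [DecidableEq V] {Γ : SimpleGraph V} [DecidableRel Γ.Adj]
    {x y : ℕ} (h : Γ.IsSRGWith 100 22 x y) (hy : y ≠ 0) : x = 0 ∧ y = 6 := by
  have h1 := SimpleGraph.IsSRGWith.param_eq Γ h (by norm_num)
  have h2 := h.matrix_eq (α := ZMod 3)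
  set A := Γ.adjMatrix (ZMod 3) with hA
  set J : Matrix V V (ZMod 3) := Matrix.of 1 with hJ
  have h3 : Γᶜ.adjMatrix (ZMod 3) = J - 1 - A := by
    ext i j
    by_cases e : i = j
    · simp [hA, hJ, e]
    · by_cases e' : Γ.Adj i j <;> simp [hA, hJ, e, e']
  have h4 : ∀ M : Matrix V V (ZMod 3), M + M + M = 0 := fun M => by
    ext i j
    exact (by decide : ∀ a : ZMod 3, a + a + a = 0) _
  have a1 : A * J = J := by
    ext i j
    simp [hA, hJ, h.regular.degree_eq]
    rfl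
  have a2 : J * A = J := by
    ext i j
    simp [hA, hJ, h.regular.degree_eq]
    rfl
  have a3 : J * J = J := by
    ext i j
    simp [hJ, Matrix.mul_apply, h.card]
    rfl
  rw [h3] at h2
  obtain h5 | ⟨rfl, rfl⟩ | ⟨rfl, rfl⟩ : (x = 0 ∧ y = 6) ∨ (x = 7 ∧ y = 4) ∨ (x = 14 ∧ y = 2) := by omega
  · exact h5
  · have h6 : IsNilpotent (A - J) := ⟨2, by
      rw [sq, mul_sub, sub_mul, sub_mul, ← sq, h2, a1, a2, a3, ← h4 (6 • 1 + A + J)]; abel⟩
    have h7 := (Matrix.isNilpotent_trace_of_isNilpotent h6).eq_zero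
    rw [Matrix.trace_sub, hA, SimpleGraph.trace_adjMatrix] at h7
    simp [hJ, Matrix.trace, h.card] at h7
    exact absurd h7 (by decide)
  · have h6 : A ^ 2 = -(1 + replicateCol Unit (1 : V → ZMod 3) * replicateRow Unit (1 : V → ZMod 3)) := by
      rw [h2, show replicateCol Unit (1 : V → ZMod 3) * replicateRow Unit (1 : V → ZMod 3) = J by
        ext i j; simp [hJ, Matrix.mul_apply], eq_neg_iff_add_eq_zero, ← h4 (7 • 1 + 4 • A + J)]
      abel
    have h7 := congrArg Matrix.det h6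
    rw [det_pow, det_neg, det_one_add_replicateCol_mul_replicateRow, h.card] at h7
    simp [h.card] at h7
    generalize A.det = d at h7
    revert d
    decide +kernel

variable {G Ω : Type*} [Group G] [MulAction G Ω] {a b c : Ω} {k l : ℕ}

/-- the orbital graph -/
def Hyp.graph (h : Hyp G a b c k l) : SimpleGraph Ω := ⟨Adj G a b, ⟨fun _ _ => h.symm⟩, ⟨h.irrefl⟩⟩

theorem Hyp.ncard_common (h : Hyp G a b c k l) (g : G) (x y : Ω) :
    (h.graph.commonNeighbors (g • x) (g • y)).ncard = (h.graph.commonNeighbors x y).ncard := by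
  rw [← Set.ncard_image_of_injective (h.graph.commonNeighbors x y) (MulAction.injective g)]
  congr 1
  ext z
  obtain ⟨z, rfl⟩ := MulAction.surjective g z
  exact (and_congr (adj_smul g) (adj_smul g)).trans 
    ((MulAction.injective g).mem_set_image (s := h.graph.commonNeighbors x y)).symm

theorem Hyp.srg (h : Hyp G a b c k l) [Fintype Ω] [DecidableRel h.graph.Adj]
    (hd : ¬ k + 1 ∣ Nat.card Ω) : ∃ x y, y ≠ 0 ∧ h.graph.IsSRGWith (1 + k + l) k x y := by
  have := h.tr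
  refine ⟨(h.graph.commonNeighbors a b).ncard, (h.graph.commonNeighbors a c).ncard, ?_,
    Nat.card_eq_fintype_card.symm.trans h.card, fun v => ?_, ?_, fun v w hne hn => ?_⟩
  · obtain ⟨y, h1, h2⟩ := h.exists_adj hd
    exact Set.ncard_ne_zero_of_mem (a := y) ⟨adj_a.2 h1, h.symm h2⟩
  · rw [← SimpleGraph.card_neighborSet_eq_degree, ← Nat.card_eq_fintype_card]
    exact h.cnt v
  · rintro _ _ ⟨g, rfl, rfl⟩
    rw [← Nat.card_eq_fintype_card]
    exact h.ncard_common g a b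
  · obtain ⟨g, rfl⟩ := exists_smul_eq G a v
    obtain ⟨w, rfl⟩ := MulAction.surjective g w
    rcases h.cover w with rfl | e | ⟨s, rfl⟩
    · exact absurd rfl hne
    · exact absurd ((adj_a.2 e).smul g) hn
    · rw [← Nat.card_eq_fintype_card, ← h.ncard_common s.1 a c, show s.1 • a = a from s.2]
      exact h.ncard_common g a _

/-- the action on an isomorphic graph -/
def Hyp.toAut (h : Hyp G a b c k l) {W : Type*} {P : SimpleGraph W} (φ : h.graph ≃g P) :
    G →* (P ≃g P) where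
  toFun g := (φ.symm.trans ⟨MulAction.toPerm g, adj_smul g⟩).trans φ
  map_one' := RelIso.ext fun x => show φ ((1 : G) • φ.symm x) = x by rw [one_smul, φ.apply_symm_apply]
  map_mul' g s := RelIso.ext fun x => show φ ((g * s) • φ.symm x) = φ (g • φ.symm (φ (s • φ.symm x))) by
    rw [mul_smul, φ.symm_apply_apply]

theorem Hyp.toAut_eq_one (h : Hyp G a b c k l) {W : Type*} {P : SimpleGraph W} (φ : h.graph ≃g P)
    {g : G} (e : h.toAut φ g = 1) (x : Ω) : g • x = x := by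
  have h1 : φ (g • φ.symm (φ x)) = φ x := DFunLike.congr_fun e (φ x)
  rw [φ.symm_apply_apply] at h1
  exact φ.injective h1

theorem iso_hs {G' Ω' : Type*} [Group G'] [MulAction G' Ω'] {a' b' c' : Ω'} [FaithfulSMul G Ω]
    [IsSimpleGroup G'] (h : Hyp G a b c 22 77) (h' : Hyp G' a' b' c' 22 77)
    (hG : Nat.card G = 44352000) (hG' : Nat.card G' = 44352000) : Nonempty (G ≃* G') := by
  classical
  have := h.finite
  have := h'.finite
  have := Fintype.ofFinite Ω
  have := Fintype.ofFinite Ω'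
  obtain ⟨x, y, h1, h2⟩ := h.srg (by rw [h.card]; norm_num)
  obtain ⟨rfl, rfl⟩ := srg_100 h2 h1
  obtain ⟨x, y, h3, h4⟩ := h'.srg (by rw [h'.card]; norm_num)
  obtain ⟨rfl, rfl⟩ := srg_100 h4 h3
  obtain ⟨φ, -⟩ := H16.hs_local_iso h2 a
  obtain ⟨ψ, -⟩ := H16.hs_pointed_iso h4 h2 a' a
  have h5 := H16.card_pbg_aut (H16.card_nbr_type h2 a) (H16.hs_steiner h2 a)
  have := Nat.finite_of_card_ne_zero (h5.trans_ne (by norm_num))
  have j1 := MonoidHom.ofInjective ((injective_iff_map_eq_one (h.toAut φ)).2 fun g e =>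
    eq_of_smul_eq_smul fun x : Ω => (h.toAut_eq_one φ e x).trans (one_smul _ x).symm)
  have j2 := MonoidHom.ofInjective (f := h'.toAut (ψ.trans φ)) ((MonoidHom.ker_eq_bot_iff _).1
    ((MonoidHom.normal_ker _).eq_bot_or_eq_top.resolve_right fun e => by
      have := h'.tr
      obtain ⟨g, hg⟩ := exists_smul_eq G' a' b'
      rw [h'.toAut_eq_one _ (e ▸ Subgroup.mem_top g : g ∈ (h'.toAut (ψ.trans φ)).ker)] at hg
      exact h'.irrefl a' ⟨1, one_smul _ _, hg ▸ one_smul _ _⟩))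
  have := j2.symm.isSimpleGroup
  have c2 := (Nat.card_congr j2.toEquiv).symm.trans hG'
  have h6 := eq_of_card_sup (((Nat.card_congr j1.toEquiv).symm.trans hG).trans c2.symm)
    ((Subgroup.card_le_card_group _).trans (by rw [c2, h5])) (by rw [c2]; norm_num)
  exact ⟨(j1.trans (MulEquiv.subgroupCongr h6)).trans j2.symm⟩

open H55 H15

/-- a configuration of minimal vectors with the action of the stabiliser -/
def XM (fx : List leechLattice) (ds : List ℤ) : SubMulAction (Fx fx) leechLattice :=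
  ⟨XS fx ds, fun g _ h => orbit_subset_XS h ⟨g, rfl⟩⟩

theorem hypX {fx : List leechLattice} {ds : List ℤ} {L : List (ℤ × ℕ)} {x : XM fx ds}
    (h1 : orbit (Fx fx) x.1 = XS fx ds) (hn : (XS fx ds).ncard = 1 + k + l) (h2 : Orbs x fx ds L)
    {p q : ℤ} (hp : (p, k) ∈ L) (hq : (q, l) ∈ L) (hkl : k ≠ l) (hk : 1 < k) (hl : 1 < l) :
    ∃ y z, Hyp (Fx fx) x y z k l := by
  have e : ∀ y : XM fx ds, (orbit (stabilizer (Fx fx) x) y).ncard = (orbit (Fx (x.1 :: fx)) y.1).ncard := by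
    intro y
    rw [← Set.ncard_image_of_injective _ Subtype.val_injective]
    congr 1
    ext z
    constructor
    · rintro ⟨_, ⟨g, rfl⟩, rfl⟩
      exact ⟨⟨g.1.1, List.forall_mem_cons.2 ⟨congrArg Subtype.val g.2, g.1.2⟩⟩, rfl⟩
    · rintro ⟨g, rfl⟩
      exact ⟨_, ⟨⟨⟨g.1, (List.forall_mem_cons.1 g.2).2⟩,
        Subtype.ext (List.forall_mem_cons.1 g.2).1⟩, rfl⟩, rfl⟩
  obtain ⟨a1, ⟨y, hy⟩, a2⟩ := h2.1 _ hp
  obtain ⟨b1, ⟨z, hz⟩, b2⟩ := h2.1 _ hq
  refine ⟨⟨y, (mem_XS_cons.1 hy).1⟩, ⟨z, (mem_XS_cons.1 hz).1⟩, IsPretransitive.of_orbit (x₀ := x)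
    fun w => ?_, hn, by rw [e, a2 y hy, a1], by rw [e, b2 z hz, b1], hkl, hk, hl⟩
  obtain ⟨g, hg⟩ : w.1 ∈ orbit (Fx fx) x.1 := h1 ▸ w.2
  exact ⟨g, Subtype.ext hg⟩

theorem isoHS [FaithfulSMul G Ω] (h : Hyp G a b c 22 77) (hc : Nat.card (stabilizer G a) = 443520) :
    Spor.IsoHS G := by
  have hv : sqNorm (Spor.leechV : Vec) = 48 := by decide +kernel
  have hw : sqNorm ((-(Spor.leechV + Spor.leechU') : leechLattice) : Vec) = 48 := by decide +kernel
  have hd : dotInt (Spor.leechV : Vec) ((-(Spor.leechV + Spor.leechU') : leechLattice) : Vec) = -32 := by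
    decide +kernel
  obtain ⟨h1, ⟨x, hx⟩, h2⟩ := (hs1 hv hw hd).1 (-24, 100) (by simp)
  obtain ⟨y, z, h'⟩ := hypX (k := 22) (l := 77) (x := ⟨x, hx⟩) (h2 x hx) h1 (hs2 hv hw hd hx)
    (p := 8) (q := 16) (by simp) (by simp) (by decide) (by decide) (by decide)
  have e : Fx [-(Spor.leechV + Spor.leechU'), Spor.leechV] =
      stabilizer Co0 (-Spor.leechU') ⊓ stabilizer Co0 Spor.leechV := by
    rw [← Fx_two, stab_neg, stab_neg, stab_inf_add, inf_comm]
  have e2 : Fx [-(Spor.leechV + Spor.leechU'), Spor.leechV] = Spor.HS.subgroupOf Co0 := by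
    rw [e, stab_neg]
    exact Subgroup.ext fun g => ⟨fun h => ⟨⟨g.2, h.2⟩, h.1⟩, fun h => ⟨h.2, h.1.2⟩⟩
  have : IsSimpleGroup (Fx [-(Spor.leechV + Spor.leechU'), Spor.leechV]) :=
    e ▸ simple_HS _ _ (by decide +kernel) hv (by decide +kernel)
  obtain ⟨f⟩ := iso_hs h h' (by rw [h.card_eq, hc])
    (e ▸ card_HS _ _ (by decide +kernel) hv (by decide +kernel))
  exact ⟨(f.trans (MulEquiv.subgroupCongr e2)).trans
    (Subgroup.subgroupOfEquivOfLe (inf_le_left.trans inf_le_left))⟩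

end Cfsg.Agent.H58.R3
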