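/-
The Harada–Norton group inside the Monster: finite facts about `A₅ ≀ 2`, `Co₀` and `HS`.
-/
import Cfsg.Agent.H15.Monster5
import Cfsg.Agent.H15.CenCo5
import Cfsg.Agent.H15.Order
import Cfsg.Agent.CONW.HSMod

set_option autoImplicit false
set_option maxRecDepth 100000
set_option Elab.async false
set_option synthInstance.maxSize 4000

namespace Cfsg.Agent.H58.HnM

open Equiv (Perm swap)
open Equiv.Perm (sign sumCongr sumCongr_mul sumCongr_one sumCongr_inv sumCongrHom_injective)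
open Subgroup MulAction H14 H15 H97 H97.Co5

theorem a5_1 : ∀ v : Perm (Fin 5), v = 1 ∨ (v * v = 1 → sign v = 1 → ∀ r : Perm (Fin 5),
    r * v = v * r → r * r * r = 1 → r = 1) := by decide +kernel

theorem a5_2 : ∀ v : Perm (Fin 5), v = 1 ∨ (v * v = 1 → sign v = 1 → ∀ i : Perm (Fin 5),
    i * v = v * i → sign i = 1 → ∀ s : Perm (Fin 5), s * s * s = 1 → s * i * s = i →
      v * s * (v * s) * (v * s) ≠ 1) := by decide +kernel

/-- the interchange of the two summands -/
abbrev cc : Perm (Fin 5 ⊕ Fin 5) := Equiv.sumComm _ _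

theorem cc_mul (σ τ : Perm (Fin 5)) : cc * sumCongr σ τ = sumCongr τ σ * cc := by
  ext x; cases x <;> rfl

theorem cc_cc : cc * cc = 1 := by ext x; cases x <;> rfl

theorem sc_inj {a b c d : Perm (Fin 5)} (h : sumCongr a b = sumCongr c d) : a = c ∧ b = d :=
  Prod.ext_iff.1 (sumCongrHom_injective (a₁ := (a, b)) (a₂ := (c, d)) h)

theorem wr_cases {g : Perm (Fin 5 ⊕ Fin 5)} (hg : g ∈ alternatingFiveWreathTwo) :
    ∃ σ τ : Perm (Fin 5), sign σ = 1 ∧ sign τ = 1 ∧
      (g = sumCongr σ τ ∨ g = sumCongr σ τ * cc) := by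
  rw [alternatingFiveWreathTwo, ← mem_toSubmonoid, closure_toSubmonoid_of_finite] at hg
  induction hg using Submonoid.closure_induction with
  | mem x hx =>
    rcases hx with ⟨σ, τ, rfl⟩ | rfl
    exacts [⟨σ, τ, σ.2, τ.2, .inl rfl⟩, ⟨1, 1, by simp, by simp, .inr (by simp)⟩]
  | one => exact ⟨1, 1, by simp, by simp, .inl (by simp)⟩
  | mul x y _ _ hx hy =>
    obtain ⟨a, b, ha, hb, rfl | rfl⟩ := hx <;> obtain ⟨c, d, hc, hd, rfl | rfl⟩ := hy
    · exact ⟨a * c, b * d, by simp [ha, hc], by simp [hb, hd], .inl (sumCongr_mul ..)⟩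
    · exact ⟨a * c, b * d, by simp [ha, hc], by simp [hb, hd], .inr (by
        rw [← mul_assoc, sumCongr_mul])⟩
    · exact ⟨a * d, b * c, by simp [ha, hd], by simp [hb, hc], .inr (by
        rw [mul_assoc, cc_mul, ← mul_assoc, sumCongr_mul])⟩
    · exact ⟨a * d, b * c, by simp [ha, hd], by simp [hb, hc], .inl (by
        rw [mul_assoc, ← mul_assoc cc, cc_mul, mul_assoc, cc_cc, mul_one, sumCongr_mul])⟩

theorem wr_three {g : Perm (Fin 5 ⊕ Fin 5)} (hg : g ∈ alternatingFiveWreathTwo)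
    (h : g * g * g = 1) : ∃ σ τ : Perm (Fin 5), sign σ = 1 ∧ sign τ = 1 ∧ g = sumCongr σ τ := by
  obtain ⟨a, b, ha, hb, rfl | rfl⟩ := wr_cases hg
  · exact ⟨a, b, ha, hb, rfl⟩
  · exact absurd (congrArg (· (Sum.inl 0)) h) (by simp)

/-- `A₅` contains no `S₄` -/
theorem wr_lemma {r s v i : alternatingFiveWreathTwo} (r3 : r * r * r = 1) (r1 : r ≠ 1)
    (s3 : s * s * s = 1) (v2 : v * v = 1) (vs : v * s * (v * s) * (v * s) = 1) (rv : r * v = v * r)
    (iv : i * v = v * i) (is : s * i * s = i) : v = 1 := by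
  replace r3 := congrArg Subtype.val r3
  replace s3 := congrArg Subtype.val s3
  replace v2 := congrArg Subtype.val v2
  replace vs := congrArg Subtype.val vs
  replace rv := congrArg Subtype.val rv
  replace iv := congrArg Subtype.val iv
  replace is := congrArg Subtype.val is
  rw [Ne, Subtype.ext_iff] at r1
  obtain ⟨ra, rb, -, -, er⟩ := wr_three r.2 r3
  obtain ⟨sa, sb, hsa, hsb, es⟩ := wr_three s.2 s3
  obtain ⟨ua, ub, hua, hub, eu⟩ := wr_three (v * s).2 vs
  obtain ⟨va, vb, hva, hvb, ev⟩ : ∃ σ τ : Perm (Fin 5), sign σ = 1 ∧ sign τ = 1 ∧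
      v.1 = sumCongr σ τ := ⟨ua * sa⁻¹, ub * sb⁻¹, by simp [hua, hsa], by simp [hub, hsb], by
    rw [← sumCongr_mul, ← sumCongr_inv, ← es, ← eu]; simp⟩
  obtain ⟨ia, ib, hia, hib, ei⟩ := wr_cases i.2
  simp only [coe_mul, coe_one, er, es, ev, sumCongr_mul, ← sumCongr_one] at r1 r3 s3 v2 vs rv iv is
  suffices va = 1 ∧ vb = 1 from Subtype.ext (by rw [ev, this.1, this.2, sumCongr_one]; rfl)
  rcases ei with ei | ei <;> rw [ei] at iv is
  · simp only [sumCongr_mul] at iv is
    exact ⟨(a5_2 va).resolve_right fun h => h (sc_inj v2).1 hva ia (sc_inj iv).1 hia sa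
      (sc_inj s3).1 (sc_inj is).1 (sc_inj vs).1, (a5_2 vb).resolve_right fun h => h (sc_inj v2).2
      hvb ib (sc_inj iv).2 hib sb (sc_inj s3).2 (sc_inj is).2 (sc_inj vs).2⟩
  · rw [mul_assoc, cc_mul, ← mul_assoc, ← mul_assoc, mul_left_inj, sumCongr_mul, sumCongr_mul] at iv
    obtain ⟨e1, e2⟩ := sc_inj iv
    rcases a5_1 va with h | h
    · exact ⟨h, by simpa [h] using e1⟩
    rcases a5_1 vb with h' | h'
    · exact ⟨by simpa [h'] using e2, h'⟩
    exact absurd (by rw [h (sc_inj v2).1 hva ra (sc_inj rv).1 (sc_inj r3).1,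
      h' (sc_inj v2).2 hvb rb (sc_inj rv).2 (sc_inj r3).2]) r1

theorem card_U6 (v w : leechLattice) (hv : sqNorm (v : Vec) = 32) (hw : sqNorm (w : Vec) = 32)
    (hd : dotInt (v : Vec) (w : Vec) = -16) :
    Nat.card ↥(stabilizer Co0 v ⊓ stabilizer Co0 w) = 9196830720 := by
  have h := card_stab_inf v w
  rw [orbit_stab_eq hw hd fun x h1 h2 => trans_pair_m16 v w v x hv hv hw h1 hd h2,
    card_stab32 v hv, show (-16 : ℤ) = 4 * (-4) by norm_num, ncard_dot_uu v hv,
    show {x : Vec | x ∈ leechLattice ∧ sqNorm x = 32 ∧ x none - x (some 0) = -4}.ncard = 4600 from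
      (ncard_diff' 8 (by norm_num) (-4)).trans (by decide +kernel)] at h
  omega

/-- the centraliser of an element of order 5 and shape `1⁴5⁴` -/
theorem cen5 : ∃ b : M24, orderOf b = 5 ∧ FixData b 8 ∧
    (∃ φ : Cen b →* alternatingFiveWreathTwo, ∀ g, φ g = 1 ↔ (g : Co0) ∈ pmCyc b) ∧
    (∀ v : leechLattice, permC b • v = v → sqNorm (v : Vec) = 32 → ∃ T : Subgroup Co0,
      16 ∣ Nat.card T ∧ ∀ k ∈ T, k * permC b = permC b * k ∧ ∃ w, k • v = v + (w + w)) ∧
    ∃ u u' : leechLattice, sqNorm (u : Vec) = 32 ∧ sqNorm (u' : Vec) = 32 ∧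
      dotInt (u : Vec) (u' : Vec) = -16 ∧ permC b • u = u ∧ permC b • u' = u' := by
  have hc : m24_5A ∈ m24Cl := by simp [m24Cl]
  obtain ⟨b, hb⟩ := exists_rep24 hc
  have ho : orderOf b = 5 := orderOf_of_ordP hb (by norm_num) (by decide +kernel)
  have hodd : Odd (orderOf b) := by rw [ho]; decide
  obtain ⟨B, hB⟩ := exists_FB hb fb
  have hg : ∀ P ∈ cB, (bvEnc 8 256 8 256 rfl rfl le_rfl).InG B.psi.range P := fun P hP =>
    let ⟨_, _, h⟩ := gens P hP; hB.inG _ _ _ hb h
  obtain ⟨y0, e0, n0, r0⟩ := hB.rep hb reps.1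
  obtain ⟨y1, -, n1, r1⟩ := hB.rep hb reps.2.1
  obtain ⟨y2, -, n2, r2⟩ := hB.rep hb reps.2.2
  have n4 : sqNorm ((0 : leechLattice) : Vec) = 0 := by simp [sqNorm]
  obtain rfl := eq_e8 e0 (some 4) (by decide +kernel)
  have o0 : ∀ x, tb O0 (wix x) = true → (MulAction.orbit B.psi.range x).ncard = 75 := fun x hx =>
    (ncard_orbit hg orbs_ok List.mem_cons_self (by
      simp only [orbs, List.forall_mem_cons]
      exact ⟨Or.inl trivial, Or.inr (r0.ne r1 (by omega) (by omega) (by omega)),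
        Or.inr (r0.ne r2 (by omega) (by omega) (by omega)),
        Or.inr (r0.ne FB.rep_zero (by omega) (by omega) (by omega)), by simp⟩) hx).trans
      (by decide +kernel)
  have hcard : Nat.card (Cen b) ≤ 2 * orderOf b * 7200 := by
    have h1 := r0.card_le
    have h2 := (card_cen_mono' hc hb).trans (by decide +kernel : _ ≤ 960)
    rw [o0 _ (by decide +kernel)] at h1
    omega
  obtain ⟨hH, φ, hφ⟩ := exists_surj _ (B.card_range_le hodd hcard) hg
  have hker := B.ker_eq hodd φ hφ (hcard.trans (Nat.mul_le_mul_left _ hH))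
  have := finite_Co0
  have hC : Nat.card (Cen b) = 72000 := by
    obtain ⟨h1, h2⟩ := B.card_ker_ge hodd φ
    have h4 := (φ.comp B.psi.rangeRestrict).ker.card_mul_index
    have hs : Function.Surjective (φ.comp B.psi.rangeRestrict) :=
      hφ.comp B.psi.rangeRestrict_surjective
    rw [index_ker, MonoidHom.range_eq_top.2 hs, card_top] at h4
    have := Nat.mul_le_mul (h2.trans (card_le_of_le h1)) hH
    rw [h4, ho] at *
    omega
  refine ⟨b, ho, B.fixData (fun g h => (hker g).1 ?_) fun j => ?_, ⟨_, hker⟩,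
    fun v hv hn => ?_, ⟨_, vec_mem (X := 0x820820820820820820820820820724820820) (by decide +kernel)⟩,
    ⟨_, vec_mem (X := 0x82082082082081c820820820820920820820) (by decide +kernel)⟩,
    by decide +kernel, by decide +kernel, by decide +kernel, fix_of_fixP' hb (by decide +kernel) rfl,
    fix_of_fixP' hb (by decide +kernel) rfl⟩
  · rw [MonoidHom.comp_apply, show B.psi.rangeRestrict g = 1 from Subtype.ext h, map_one]
  · rw [o0 _ ((by decide +kernel : ∀ j : Fin 8, tb O0 (wix (wpt 8 (2 ^ (j : ℕ)))) = true) j)]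
    decide
  have rv := B.rep_wix hv
  have o1 : (MulAction.orbit B.psi.range (B.kap v)).ncard = 60 := by
    obtain ⟨p, hp, e⟩ := orbs_cover (E := bvEnc 8 256 8 256 rfl rfl le_rfl) orbs_ok (B.kap v)
    obtain ⟨g, g1, g2⟩ := orbs_sound hg orbs_ok hp e
    rw [← wpt_wix (B.kap v)] at g2
    have hp' := hp
    simp only [orbs, List.mem_cons, List.not_mem_nil, or_false] at hp'
    rcases hp' with rfl | rfl | rfl | rfl
    · exact absurd g2 (r0.ne rv (by omega) (by omega) (by omega) g g1)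
    · exact (ncard_orbit hg orbs_ok hp (by
        simp only [orbs, List.forall_mem_cons]
        exact ⟨Or.inr (r1.ne r0 (by omega) (by omega) (by omega)), Or.inl trivial,
          Or.inr (r1.ne r2 (by omega) (by omega) (by omega)),
          Or.inr (r1.ne FB.rep_zero (by omega) (by omega) (by omega)), by simp⟩) e).trans
        (by decide +kernel)
    · exact absurd g2 (r2.ne rv (by omega) (by omega) (by omega) g g1)
    · exact absurd g2 (FB.rep_zero.ne rv (by omega) (by omega) (by omega) g g1)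
  let T := (stabilizer B.psi.range (B.kap v)).comap B.psi.rangeRestrict
  have hT := T.index_mul_card
  rw [index_comap_of_surjective _ B.psi.rangeRestrict_surjective, index_stabilizer, o1, hC] at hT
  refine ⟨T.map (Cen b).subtype, by rw [card_map_of_injective (subtype_injective _)]; omega, ?_⟩
  rintro _ ⟨k, hk, rfl⟩
  exact ⟨mem_centralizer_singleton_iff.1 k.2, H15.mk_eq_iff'.1
    (B.mk_eq_of_kap (cen_fix k hv) hv ((B.psi_kap k hv).symm.trans hk))⟩

/-- an element of order 7 of the model of `HS` -/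
def P7 : ℕ := nat_lit 0x78f71ca6ed9dc1c56f0c764cdcd87eea145993ed483301a22607179e3f1af2956818c9c12e8965caaa9da4f88002a18287065070a1a129c42ea16a44b5ecb5b86890b222161b4759c4da174c2643384931e313df8750101

open CONW.HS in
theorem hs_cent7 {y c : Spor.HS} (hy : orderOf y = 7) (h : c * y = y * c) : c ∈ zpowers y := by
  obtain ⟨e⟩ := equivK
  obtain ⟨g, hg, eg⟩ : EE.InG K P7 := ModQ.chain_K.inG_of_sift (by decide +kernel) (by decide +kernel)
  have og : orderOf (⟨g, hg⟩ : K) = 7 := by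
    rw [orderOf_mk]
    exact EE.orderOf_eq_of_ordP (by norm_num) (by rw [eg]; decide +kernel)
  have : Finite K := Nat.finite_of_card_ne_zero (by rw [card_K]; norm_num)
  obtain ⟨j, hj⟩ := exists_isConj_zpow (p := 7) (by norm_num) (by rw [card_K]; decide +kernel)
    ((e.orderOf_eq y).trans hy) og
  obtain ⟨k, hk⟩ := isConj_iff.1 hj
  have h1 : k * e c * k⁻¹ * ⟨g, hg⟩ = ⟨g, hg⟩ * (k * e c * k⁻¹) := by
    rw [← hk, conj_mul, conj_mul, ← map_zpow, ← map_mul, ← map_mul, (Commute.zpow_right h j).eq]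
  obtain ⟨i, -, hi⟩ := anyL_iff.1 (ModQ.chain_K.forall_of_allI (EE.fixes_zero _)
    (cs := [(P7, P7)]) (ds := []) (f := fun H => anyL [0, 1, 2, 3, 4, 5, 6] fun i =>
      Nat.beq H (powP (nat_lit 7) (nat_lit 128) (nat_lit 100) P7 i)) (by decide +kernel)
    (k * e c * k⁻¹).1 (k * e c * k⁻¹).2 ⟨by
      simp only [List.forall_mem_singleton, ModQ.perm_eq eg]
      exact congrArg Subtype.val h1, by simp⟩)
  rw [beq_iff, ← eg, ← EE.pk_pow, EE.pk_inj] at hi
  have h2 : k * e c * k⁻¹ = (⟨g, hg⟩ : K) ^ i := Subtype.ext hi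
  rw [← hk, conj_pow, mul_left_inj, mul_right_inj, ← map_zpow, ← map_pow, e.apply_eq_iff_eq] at h2
  exact h2 ▸ pow_mem (zpow_mem_zpowers y j) i

theorem nine_dvd {L : Type*} [Group L] [Finite L] {a b : L} (ha : orderOf a = 3) (hb : b ^ 3 = 1)
    (h : a * b = b * a) (hn : b ∉ zpowers a) : 9 ∣ Nat.card L := by
  have : Fact (Nat.Prime 3) := ⟨by norm_num⟩
  let a' : centralizer ({a} : Set L) := ⟨a, mem_centralizer_singleton_iff.2 rfl⟩
  let b' : centralizer ({a} : Set L) := ⟨b, mem_centralizer_singleton_iff.2 h.symm⟩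
  have : (zpowers a').Normal := ⟨by
    rintro _ ⟨i, rfl⟩ g
    have : Commute g a' := Subtype.ext (mem_centralizer_singleton_iff.1 g.2)
    simp only
    rw [(this.zpow_right i).eq, mul_inv_cancel_right]
    exact zpow_mem_zpowers _ _⟩
  have h1 : orderOf (b' : _ ⧸ zpowers a') = 3 := orderOf_eq_prime
    (by rw [← QuotientGroup.mk_pow, show b' ^ 3 = 1 from Subtype.ext hb]; rfl) fun e => by
      obtain ⟨i, hi⟩ := (QuotientGroup.eq_one_iff _).1 e
      exact hn ⟨i, congrArg Subtype.val hi⟩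
  refine Dvd.dvd.trans ?_ (centralizer ({a} : Set L)).card_subgroup_dvd_card
  rw [card_eq_card_quotient_mul_card_subgroup (zpowers a'), Nat.card_zpowers, orderOf_mk, ha]
  exact Nat.mul_dvd_mul_right (h1 ▸ _root_.orderOf_dvd_natCard _) 3

/-- a subgroup of index dividing 275 containing a Sylow 7-normaliser is everything -/
theorem hs_full {L : Subgroup Spor.HS} (h1 : 161280 ∣ Nat.card L) {y g : Spor.HS} (hy : y ∈ L)
    (hg : g ∈ L) (o : orderOf y = 7) (e : g * y * g⁻¹ = y ^ 3) : L = ⊤ := by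
  have : Fact (Nat.Prime 7) := ⟨by norm_num⟩
  have cH := H55.card_HS'
  have : Finite Spor.HS := Nat.finite_of_card_ne_zero (by rw [cH]; norm_num)
  have hi : L.index ∣ 275 := by
    obtain ⟨c, hc⟩ := h1
    have := L.card_mul_index
    rw [cH, hc] at this
    exact ⟨c, by nlinarith⟩
  have hN : ∀ (j : ℤ) (k : Spor.HS), k * y * k⁻¹ = y ^ j → k ∈ L := fun j k hk => by
    have h2 : ∀ n : ℕ, g ^ n * y * (g ^ n)⁻¹ = y ^ 3 ^ n := fun n => by
      induction n with
      | zero => simp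
      | succ n ih => rw [pow_succ, pow_succ', pow_mul, ← e, conj_pow, mul_inv_rev, ← mul_assoc,
          mul_assoc _ g, mul_assoc _ _ g⁻¹, e, ← conj_pow, ih, ← pow_mul, mul_comm, pow_mul, ← e,
          ← conj_pow]
    obtain ⟨n, hn⟩ : ∃ n : ℕ, y ^ j = y ^ 3 ^ n := by
      have h3 : ¬ (7 : ℤ) ∣ j := fun h => by
        rw [show y ^ j = 1 from orderOf_dvd_iff_zpow_eq_one.1 (by rw [o]; exact h),
          mul_inv_eq_one, mul_eq_left] at hk
        rw [show y = 1 from hk, orderOf_one] at o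
        omega
      obtain ⟨n, hn⟩ : ∃ n : ℕ, j % 7 = 3 ^ n % 7 := by
        have : j % 7 = 1 ∨ j % 7 = 3 ∨ j % 7 = 2 ∨ j % 7 = 6 ∨ j % 7 = 4 ∨ j % 7 = 5 := by omega
        rcases this with h | h | h | h | h | h <;> rw [h]
        exacts [⟨0, rfl⟩, ⟨1, rfl⟩, ⟨2, rfl⟩, ⟨3, rfl⟩, ⟨4, rfl⟩, ⟨5, rfl⟩]
      refine ⟨n, ?_⟩
      rw [← zpow_natCast, zpow_eq_zpow_iff_modEq, o]
      exact_mod_cast hn
    refine (mul_mem_cancel_left (inv_mem (pow_mem hg n))).1 (zpowers_le.2 hy (hs_cent7 o ?_))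
    calc _ = (g ^ n)⁻¹ * (k * y * k⁻¹) * k := by group
      _ = _ := by rw [hk, hn, ← h2]; group
  have h7 : (Nat.card L).factorization 7 = 1 := by
    have a1 := (Nat.factorization_le_iff_dvd (by norm_num) Nat.card_pos.ne').2 h1 7
    have a2 := (Nat.factorization_le_iff_dvd Nat.card_pos.ne' Nat.card_pos.ne').2
      L.card_subgroup_dvd_card 7
    rw [cH, show Nat.factorization 44352000 7 = 1 by decide +kernel] at a2
    rw [show Nat.factorization 161280 7 = 1 by decide +kernel] at a1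
    omega
  have hP : IsPGroup 7 (zpowers y) := IsPGroup.of_card (n := 1) (by rw [Nat.card_zpowers, o]; rfl)
  have h4 := hP.card_modEq_card_fixedPoints (Spor.HS ⧸ L)
  have h5 : fixedPoints (zpowers y) (Spor.HS ⧸ L) = {((1 : Spor.HS) : Spor.HS ⧸ L)} := by
    ext q
    obtain ⟨k, rfl⟩ := QuotientGroup.mk_surjective q
    rw [Set.mem_singleton_iff, QuotientGroup.eq, mul_one, inv_mem_iff]
    constructor
    · intro hk
      have h6 : k⁻¹ * y * k ∈ L := by
        have := QuotientGroup.eq.1 (hk ⟨y, mem_zpowers y⟩).symm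
        rwa [mul_assoc]
      obtain ⟨j, hj⟩ := exists_isConj_zpow (K := L) (p := 7) (by norm_num) h7 (x := ⟨y, hy⟩)
        (y := ⟨_, h6⟩) (by rw [orderOf_mk, o]) (by
          rw [orderOf_mk, ← o, ← (MulAut.conj k⁻¹).orderOf_eq y]; simp)
      obtain ⟨l, hl⟩ := isConj_iff.1 hj
      have h8 : (l : Spor.HS) * y ^ j * (l : Spor.HS)⁻¹ = k⁻¹ * y * k := congrArg Subtype.val hl
      have := hN j ((l : Spor.HS)⁻¹ * k⁻¹) (by
        calc _ = (l : Spor.HS)⁻¹ * (k⁻¹ * y * k) * l := by group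
          _ = _ := by rw [← h8]; group)
      rwa [mul_mem_cancel_left (inv_mem l.2), inv_mem_iff] at this
    · intro hk a
      refine QuotientGroup.eq.2 ?_
      exact mul_mem (inv_mem (mul_mem (zpowers_le.2 hy a.2) hk)) hk
  rw [h5, ← index_eq_card, Nat.card_unique] at h4
  exact index_eq_one.1 ((by decide +kernel : ∀ d ∈ Nat.divisors 275, d % 7 = 1 % 7 → d = 1) _
    (Nat.mem_divisors.2 ⟨hi, by norm_num⟩) h4)

end Cfsg.Agent.H58.HnM
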