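/-
The Harada–Norton group inside the Monster: the centraliser of an element of order 5 in `2¹⁺²⁴.Co₁`.
-/
import Cfsg.Agent.H58.HnA

set_option autoImplicit false
set_option maxRecDepth 100000
set_option Elab.async false

namespace Cfsg.Agent.H58.HnM

open Subgroup MulAction H14 H15 H97

variable {G : Type*} [Group G] {X : Set G}

/-- a class of 6-transpositions -/
structure XD (X : Set G) : Prop where
  cj : ∀ a ∈ X, ∀ g, g * a * g⁻¹ ∈ X
  sq : ∀ a ∈ X, a * a = 1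
  ne : ∀ a ∈ X, a ≠ 1
  ord : ∀ a ∈ X, ∀ b ∈ X, ∃ r, 0 < r ∧ r ≤ 6 ∧ (a * b) ^ r = 1

/-- the class `X` and the extraspecial group of `z` -/
structure QD (X : Set G) (z : G) (Q : Subgroup G) (π : centralizer ({z} : Set G) →* Spor.Co1)
    (R : G → leechLattice → Prop) : Prop where
  xd : XD X
  md : MD z Q π R
  fus : ∃ g, g * z * g⁻¹ ∈ Q ∧ g * z * g⁻¹ ≠ z
  two : ∀ {q v}, R q v → sqNorm (v : Vec) = 32 → q ∈ X
  crit : ∀ a ∈ X, a * z ∈ X → a ∈ Q
  nz : z ∉ X

theorem XD.cj' (D : XD X) {a g : G} (h : g * a * g⁻¹ ∈ X) : a ∈ X := by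
  simpa [mul_assoc] using D.cj _ h g⁻¹

/-- a product of two elements of `X` does not have order `5 · 2ⁿ` -/
theorem XD.no10 (D : XD X) {a a' x y : G} (ha : a ∈ X) (ha' : a' ∈ X) (ox : orderOf x = 5)
    (hx : a * x * a⁻¹ = x⁻¹) {n : ℕ} (hy : y ^ 2 ^ n = 1) (c : Commute y x) {i : ℤ}
    (e : a * a' = y * x ^ i) : y = 1 := by
  have x5 : x ^ 5 = 1 := ox ▸ pow_orderOf_eq_one x
  have h1 : x ^ (1 - i) * a ∈ X := by
    have h2 := D.cj a ha (x ^ (3 * (1 - i)))
    have h3 : a * (x ^ (3 * (1 - i)))⁻¹ = x ^ (3 * (1 - i)) * a := by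
      rw [← mul_inv_eq_iff_eq_mul, ← conj_inv, ← conj_zpow, hx, inv_zpow, inv_inv]
    rwa [mul_assoc, h3, ← mul_assoc, ← zpow_add, show 3 * (1 - i) + 3 * (1 - i) =
      (5 : ℕ) * (1 - i) + (1 - i) by push_cast; ring, zpow_add, zpow_mul, zpow_natCast, x5, one_zpow,
      one_mul] at h2
  obtain ⟨r, r0, r6, hr⟩ := D.ord _ h1 _ ha'
  rw [mul_assoc, e, ← mul_assoc, ← (c.zpow_right _).eq, mul_assoc, ← zpow_add, sub_add_cancel,
    zpow_one, c.mul_pow] at hr
  have h4 : x ^ r = 1 := eq_one_of_odd (p := 5) (n := n) (by decide)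
    (by rw [← pow_mul, mul_comm, pow_mul, x5, one_pow])
    (by rw [eq_inv_of_mul_eq_one_right hr, inv_pow, ← pow_mul, mul_comm, pow_mul, hy, one_pow, inv_one])
  have h5 := orderOf_dvd_of_pow_eq_one h4
  rw [ox] at h5
  obtain rfl : r = 5 := by omega
  rw [x5, mul_one] at hr
  exact eq_one_of_odd (by decide) hr hy

theorem fix_odd {k : Co0} (hk : k ^ 5 = 1) {v w : leechLattice} (hv : sqNorm (v : Vec) = 32)
    (h : k • v = v + (w + w)) : k • v = v := by
  have hn : sqNorm ((k • v : leechLattice) : Vec) = 32 := by rw [co0_norm, hv]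
  rcases (short_congr h (by omega) (by omega) (by omega) (by omega)).2 (by omega) with e | e
  · exact e.symm
  · have e' : k • v = -v := neg_eq_iff_eq_neg.1 e.symm
    have : k ^ 6 • v = v := by
      simp only [pow_succ, pow_zero, one_mul, mul_smul, e', co0_smul_neg, neg_neg]
    rwa [pow_succ, hk, one_mul] at this

namespace QD

variable {z : G} {Q : Subgroup G} {π : centralizer ({z} : Set G) →* Spor.Co1}
  {R : G → leechLattice → Prop} (q : QD X z Q π R)
include q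

theorem cj (g : G) :
    QD X (g * z * g⁻¹) (cjs g Q) (π.comp (cenConj z g)) (fun a v => R (g⁻¹ * a * g) v) := by
  obtain ⟨u, h1, h2⟩ := q.fus
  refine ⟨q.xd, q.md.cj g, ⟨g * u * g⁻¹, mem_cjs.2 (by convert h1 using 1; group), fun e => h2 ?_⟩,
    fun h h' => q.xd.cj' (g := g⁻¹) (by rw [inv_inv]; exact q.two h h'), fun a ha h => mem_cjs.2
      (q.crit _ (by simpa using q.xd.cj a ha g⁻¹) (by convert q.xd.cj _ h g⁻¹ using 1; group)),
    fun h => q.nz (q.xd.cj' h)⟩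
  calc _ = g⁻¹ * (g * u * g⁻¹ * (g * z * g⁻¹) * (g * u * g⁻¹)⁻¹) * g := by group
    _ = _ := by rw [e]; group

theorem twist (k : Co0) :
    QD X z Q ((MulAut.conj (k : Spor.Co1)).toMonoidHom.comp π) (fun a v => R a (k⁻¹ • v)) :=
  ⟨q.xd, q.md.twist k, q.fus, fun h h' => q.two h (by rw [co0_norm, h']), q.crit, q.nz⟩

theorem nc {a : G} (ha : a ∈ X) : ¬ IsConj z a := fun h => by
  obtain ⟨g, rfl⟩ := isConj_iff.1 h
  exact q.nz (q.xd.cj' ha)

theorem q4 {a : G} (ha : a ∈ Q) : a ^ 2 ^ 2 = 1 := by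
  rw [show 2 ^ 2 = 2 * 2 from rfl, pow_mul, pow_two a]
  rcases q.md.lx.sqr a ha with e | e <;> rw [e]
  exacts [one_pow _, (pow_two _).trans q.md.lx.sq]

/-- the type of a product of two elements of type 2 -/
theorem dot {c d : G} {C D W : leechLattice} (hc : R c C) (hd : R d D) (hw : R (c * d) W)
    (nC : sqNorm (C : Vec) = 32) (nD : sqNorm (D : Vec) = 32) (w0 : sqNorm (W : Vec) ≠ 0)
    (w1 : sqNorm (W : Vec) ≤ 64) : sqNorm (W : Vec) = 64 + 2 * dotInt (C : Vec) (D : Vec) ∨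
      sqNorm (W : Vec) = 64 - 2 * dotInt (C : Vec) (D : Vec) := by
  have key : ∀ D : leechLattice, R d D → sqNorm (D : Vec) = 32 → dotInt (C : Vec) (D : Vec) ≤ 0 →
      sqNorm (W : Vec) = 64 + 2 * dotInt (C : Vec) (D : Vec) := fun D hd nD h => by
    have e : sqNorm ((C + D : leechLattice) : Vec) = 64 + 2 * dotInt (C : Vec) (D : Vec) := by
      rw [AddSubgroup.coe_add, sqNorm_add, nC, nD]; ring
    by_cases h0 : ((C + D : leechLattice) : Vec) = 0
    · have := q.md.mul hc hd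
      rw [show C + D = 0 from Subtype.ext h0] at this
      exact absurd ((q.md.one_iff this).2 ⟨0, by simp⟩) (not_or.2 (q.md.ne_of_short hw w0 w1))
    · have := min_norm (C + D).2 h0
      rw [← e]
      exact q.md.norm_eq (q.md.mul hc hd) hw (by omega) (by omega) w0 w1
  rcases le_total (dotInt (C : Vec) (D : Vec)) 0 with h | h
  · exact .inl (key D hd nD h)
  · have := key (-D) (q.md.neg hd) (by rw [AddSubgroup.coe_neg, sqNorm_neg, nD])
      (by rw [AddSubgroup.coe_neg, dot_neg_right]; omega)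
    rw [AddSubgroup.coe_neg, dot_neg_right] at this
    exact .inr (by omega)

variable [Finite G]

theorem vec {a : G} (ha : a ∈ X) (h : a ∈ Q) : ∃ v, R a v ∧ sqNorm (v : Vec) = 32 :=
  let ⟨_, h1, h2⟩ := q.fus
  q.md.type_two h1 h2 h (q.xd.ne a ha) (q.xd.sq a ha) (q.nc ha)

theorem zmul {a : G} (ha : a ∈ X) (h : a ∈ Q) : z * a ∈ X :=
  let ⟨_, h1, h2⟩ := q.vec ha h
  q.two (q.md.zmul h1) h2

theorem dot16 {c d : G} {C D : leechLattice} (hc : R c C) (hd : R d D)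
    (nC : sqNorm (C : Vec) = 32) (nD : sqNorm (D : Vec) = 32) (h : c * d ∈ X) :
    dotInt (C : Vec) (D : Vec) = 16 ∨ dotInt (C : Vec) (D : Vec) = -16 := by
  obtain ⟨W, h1, h2⟩ := q.vec h (q.md.mem (q.md.mul hc hd))
  have := q.dot hc hd h1 nC nD (by omega) (by omega)
  omega

theorem dot0 {c d : G} {C D : leechLattice} (hc : R c C) (hd : R d D)
    (nC : sqNorm (C : Vec) = 32) (nD : sqNorm (D : Vec) = 32) (h : IsConj z (c * d))
    (h' : c * d ≠ z) : dotInt (C : Vec) (D : Vec) = 0 := by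
  obtain ⟨g, e⟩ := isConj_iff.1 h
  obtain ⟨W, h1, h2⟩ := q.md.type_four (g := g) (e ▸ q.md.mem (q.md.mul hc hd)) (e ▸ h')
  have := q.dot hc hd (e ▸ h1) nC nD (by omega) (by omega)
  omega

omit [Finite G] in
theorem three [Finite G] {a : G} (ha : a ∈ Q) (h : a * a ≠ 1) : ∃ W, R a W ∧ sqNorm (W : Vec) = 48 := by
  rcases q.md.short ha with (rfl | rfl) | ⟨W, h1, h2⟩
  · exact absurd (mul_one _) h
  · exact absurd q.md.lx.sq h
  · rw [Ne, q.md.sq_iff h1] at h
    exact ⟨W, h1, by omega⟩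

theorem dot8 {c d : G} {C D : leechLattice} (hc : R c C) (hd : R d D)
    (nC : sqNorm (C : Vec) = 32) (nD : sqNorm (D : Vec) = 32) (h : c * d * (c * d) ≠ 1) :
    dotInt (C : Vec) (D : Vec) = 8 ∨ dotInt (C : Vec) (D : Vec) = -8 := by
  obtain ⟨W, h1, h2⟩ := q.three (q.md.mem (q.md.mul hc hd)) h
  have := q.dot hc hd h1 nC nD (by omega) (by omega)
  omega

/-- two elements of type 2 with product of type 2 -/
theorem pair {c d : G} (hc : c ∈ X) (hd : d ∈ X) (hc' : c ∈ Q) (hd' : d ∈ Q) (h : c * d ∈ X) :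
    ∃ C D, R c C ∧ R d D ∧ sqNorm (C : Vec) = 32 ∧ sqNorm (D : Vec) = 32 ∧
      dotInt (C : Vec) (D : Vec) = -16 := by
  obtain ⟨C, h1, h2⟩ := q.vec hc hc'
  obtain ⟨D, h3, h4⟩ := q.vec hd hd'
  rcases q.dot16 h1 h3 h2 h4 h with e | e
  · exact ⟨C, -D, h1, q.md.neg h3, h2, by rw [AddSubgroup.coe_neg, sqNorm_neg, h4],
      by rw [AddSubgroup.coe_neg, dot_neg_right, e]⟩
  · exact ⟨C, D, h1, h3, h2, h4, e⟩

/-- an element of order 5 centralising two elements of type 2 with product of type 2 -/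
theorem exists_pos {x c d : G} (ox : orderOf x = 5) (hz : x ∈ centralizer ({z} : Set G))
    (hc : c ∈ X) (hd : d ∈ X) (hc' : c ∈ Q) (hd' : d ∈ Q) (h : c * d ∈ X) (xc : x * c = c * x)
    (xd : x * d = d * x) {b : M24} (ob : orderOf b = 5) {u u' : leechLattice}
    (nu : sqNorm (u : Vec) = 32) (nu' : sqNorm (u' : Vec) = 32) (du : dotInt (u : Vec) (u' : Vec) = -16)
    (fu : permC b • u = u) (fu' : permC b • u' = u') : ∃ (j : ℤ) (k : Co0),
      (permC b : Spor.Co1) = MulAut.conj (k : Spor.Co1) (π ⟨x ^ j, zpow_mem hz j⟩) := by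
  have := finite_Co0
  have : Fact (Nat.Prime 5) := ⟨by norm_num⟩
  obtain ⟨C, D, h1, h2, h3, h4, h5⟩ := q.pair hc hd hc' hd' h
  have x5 : (⟨x, hz⟩ : centralizer ({z} : Set G)) ^ 5 = 1 := Subtype.ext (ox ▸ pow_orderOf_eq_one x)
  obtain ⟨k, e, k5⟩ : ∃ k : Co0, (k : Spor.Co1) = π ⟨x, hz⟩ ∧ k ^ 5 = 1 := by
    obtain ⟨k, e⟩ := MD.lift' (π := π) ⟨x, hz⟩
    have : ((k ^ 5 : Co0) : Spor.Co1) = 1 := by rw [QuotientGroup.mk_pow, e, ← map_pow, x5, map_one]
    rcases mem_center_iff'.1 ((QuotientGroup.eq_one_iff _).1 this) with e' | e'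
    · exact ⟨k, e, e'⟩
    · exact ⟨negC * k, (co1_neg k).trans e, by
        rw [Commute.mul_pow (negC_comm _).symm, negC_pow_odd (by decide), e', negC_sq]⟩
  have fx : ∀ {c C}, R c C → sqNorm (C : Vec) = 32 → x * c = c * x → k • C = C := fun h1 h3 xc => by
    have := q.md.conj _ k e h1
    rw [show ((⟨x, hz⟩ : centralizer _) : G) = x from rfl, xc, mul_inv_cancel_right] at this
    obtain ⟨w, hw⟩ := q.md.congr h1 this
    exact fix_odd k5 h3 hw
  obtain ⟨g, rfl, rfl⟩ := trans_pair_m16 C D u u' h3 nu h4 nu' h5 du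
  have k1 : k ≠ 1 := fun e' => by
    have h6 := (q.md.ker ⟨x, hz⟩).1 (by rw [← e, e']; rfl)
    have := eq_one_of_odd (by decide) (congrArg Subtype.val x5) (q.q4 h6)
    rw [show x = 1 from this, orderOf_one] at ox
    omega
  obtain ⟨j, hj⟩ := exists_isConj_zpow (K := ↥(stabilizer Co0 (g • C) ⊓ stabilizer Co0 (g • D)))
    (p := 5) (by norm_num) (by rw [card_U6 _ _ nu nu' du]; decide +kernel)
    (x := ⟨g * k * g⁻¹, mem_inf.2 ⟨mem_stabilizer_iff.2 (by
      rw [mul_smul, inv_smul_smul, mul_smul, fx h1 h3 xc]), mem_stabilizer_iff.2 (by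
      rw [mul_smul, inv_smul_smul, mul_smul, fx h2 h4 xd])⟩⟩)
    (y := ⟨permC b, mem_inf.2 ⟨mem_stabilizer_iff.2 fu, mem_stabilizer_iff.2 fu'⟩⟩) (by
      rw [orderOf_mk, ← MulAut.conj_apply, MulEquiv.orderOf_eq, orderOf_eq_prime k5 k1])
    (by rw [orderOf_mk, ← ob]; exact orderOf_injective permHom permHom_injective b)
  obtain ⟨c, hc⟩ := isConj_iff.1 hj
  have e2 : (c : Co0) * (g * k * g⁻¹) ^ j * (c : Co0)⁻¹ = permC b := congrArg Subtype.val hc
  refine ⟨j, c * g, ?_⟩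
  rw [← e2, show (⟨x ^ j, zpow_mem hz j⟩ : centralizer ({z} : Set G)) = ⟨x, hz⟩ ^ j from rfl,
    map_zpow, ← e, conj_zpow]
  simp [mul_assoc]

section

variable {x : G} (ox : orderOf x = 5) (hz : x ∈ centralizer ({z} : Set G)) {b : M24}
  (ob : orderOf b = 5) (hπ : (permC b : Spor.Co1) = π ⟨x, hz⟩)
include ox ob hπ

omit ob [Finite G] in
theorem fix_mem {a : G} {v : leechLattice} (h : R a v) (hv : permC b • v = v) : a * x = x * a := by
  have h1 := q.md.conj _ _ hπ h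
  have hz' := mem_centralizer_singleton_iff.1 hz
  rw [hv] at h1
  rw [eq_comm, ← mul_inv_eq_iff_eq_mul]
  refine (q.md.uniq h h1).resolve_right fun e => q.md.lx.ne ?_
  have e : x * a * x⁻¹ = z * a := e
  have h2 : ∀ n : ℕ, x ^ n * a = z ^ n * a * x ^ n := fun n => by
    induction n with
    | zero => simp
    | succ n ih =>
      rw [pow_succ', mul_assoc, ih, ← mul_assoc, ← mul_assoc,
        (Commute.pow_right hz' n).eq, mul_assoc _ x, mul_inv_eq_iff_eq_mul.1 e, pow_succ]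
      simp only [mul_assoc]
  have h3 := h2 5
  rw [← ox, pow_orderOf_eq_one, one_mul, mul_one, eq_comm, mul_eq_right, ox] at h3
  exact eq_one_of_odd (by decide) h3 (q.q4 q.md.lx.mem)

omit q [Finite G] ox in
theorem lift_cen (h : centralizer ({z} : Set G)) (hx : h * x = x * h) :
    ∃ k : Cen b, ((k : Co0) : Spor.Co1) = π h := by
  obtain ⟨k, e⟩ := MD.lift' (π := π) h
  refine ⟨⟨k, mem_centralizer_singleton_iff.2 (comm_of_co1 (p := 5) (by decide)
    (permC_pow (ob ▸ pow_orderOf_eq_one b)) ?_)⟩, e⟩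
  rw [e, hπ, ← map_mul, ← map_mul]
  exact congrArg π (Subtype.ext hx)

omit [Finite G] ox ob in
theorem dec (h : centralizer ({z} : Set G)) {k : Co0} (e : (k : Spor.Co1) = π h) (hk : k ∈ pmCyc b) :
    ∃ i : ℤ, h * (x ^ i)⁻¹ ∈ Q := by
  obtain ⟨i, hi⟩ := mem_pmCyc.1 hk
  refine ⟨i, (q.md.ker (h * (⟨x, hz⟩ ^ i)⁻¹)).1 ?_⟩
  rw [map_mul, map_inv, map_zpow, ← hπ, ← e, ← hi, mul_inv_cancel]

omit [Finite G] in
/-- the map onto `A₅ ≀ 2` -/
theorem exists_mu {T : Type*} [Group T] (φ : Cen b →* T) (hφ : ∀ g, φ g = 1 ↔ (g : Co0) ∈ pmCyc b) :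
    ∃ μ : ↥(centralizer ({z} : Set G) ⊓ centralizer {x}) →* T, (∀ h, h.1 ∈ Q → μ h = 1) ∧
      (∀ h, μ h = 1 → h * h = 1 → (h : G) ∈ Q) ∧ ∀ h, μ h = 1 → h * h * h = 1 → h = 1 := by
  have hr := fun h : ↥(centralizer ({z} : Set G) ⊓ centralizer {x}) => lift_cen hz ob hπ
    (inclusion inf_le_left h) (mem_centralizer_singleton_iff.1 h.2.2)
  obtain ⟨μ, hμ⟩ := exists_hom_of_range ((QuotientGroup.mk' _).comp (Cen b).subtype)
    (π.comp (inclusion inf_le_left)) hr φ fun k e => (hφ k).2 (mem_pmCyc.2 (by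
      rw [show ((k : Co0) : Spor.Co1) = 1 from e]; exact one_mem _))
  have x5 : ∀ i : ℤ, (x ^ i) ^ 5 = 1 := fun i => by
    rw [← zpow_natCast, ← zpow_mul, mul_comm, zpow_mul, zpow_natCast, ← ox, pow_orderOf_eq_one,
      one_zpow]
  have key : ∀ h, μ h = 1 → ∃ i : ℤ, (h : G) * (x ^ i)⁻¹ ∈ Q ∧ (h : G) ^ 4 = (x ^ i) ^ 4 := fun h e => by
    obtain ⟨k, e'⟩ := hr h
    obtain ⟨i, hi⟩ := q.dec hz hπ _ e' ((hφ k).1 ((hμ h k e').symm.trans e))
    have c : Commute (h : G) (x ^ i)⁻¹ :=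
      (Commute.zpow_right (mem_centralizer_singleton_iff.1 h.2.2) i).inv_right
    have := q.q4 hi
    rw [show ((inclusion inf_le_left h : centralizer _) : G) = h from rfl, c.mul_pow, inv_pow,
      mul_inv_eq_one] at this
    exact ⟨i, hi, this⟩
  refine ⟨μ, fun h hq => ?_, fun h e h2 => ?_, fun h e h3 => ?_⟩
  · obtain ⟨k, e⟩ := hr h
    rw [hμ h k e]
    exact (hφ k).2 (mem_pmCyc.2 (by rw [e, (q.md.ker _).2 hq]; exact one_mem _))
  · obtain ⟨i, h1, h4⟩ := key h e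
    rw [show 4 = 2 * 2 from rfl, pow_mul, pow_two (h : G), ← coe_mul, h2, coe_one, one_pow] at h4
    rwa [eq_one_of_odd (n := 2) (by decide) (x5 i) h4.symm, inv_one, mul_one] at h1
  · obtain ⟨i, -, h4⟩ := key h e
    have h5 : (h : G) ^ 3 = 1 := by
      rw [pow_succ, pow_two]; exact congrArg Subtype.val h3
    have h6 : (h : G) ^ 20 = 1 := by
      rw [show 20 = 4 * 5 from rfl, pow_mul, h4, ← pow_mul, mul_comm, pow_mul, x5, one_pow]
    rw [show 20 = 3 * 6 + 2 from rfl, pow_add, pow_mul, h5, one_pow, one_mul] at h6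
    rw [pow_succ, h6, one_mul] at h5
    exact Subtype.ext h5

omit [Finite G] in
/-- an element of `X` inverting `x` centralises the 2-elements of `C(z, x)` -/
theorem cent_two (F : FixData b 8) {a : G} (ha : a ∈ X) (az : a * z = z * a)
    (ax : a * x * a⁻¹ = x⁻¹) {h : G} (h1 : Commute h z) (h2 : Commute h x) {n : ℕ}
    (h3 : h ^ 2 ^ n = 1) : Commute h a := by
  have ai : a⁻¹ = a := inv_eq_of_mul_eq_one_right (q.xd.sq a ha)
  have cx : ∀ g, Commute g x → Commute (a * (g * a * g⁻¹)) x := fun g hg => by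
    have e1 : a * x⁻¹ * a⁻¹ = x := by rw [← conj_inv, ax, inv_inv]
    calc a * (g * a * g⁻¹) * x = a * (g * (a * x * a⁻¹) * g⁻¹) * g * a * g⁻¹ := by
          rw [mul_assoc a, mul_assoc _ g⁻¹, hg.inv_left.eq]; group
      _ = a * x⁻¹ * a⁻¹ * (a * (g * a * g⁻¹)) := by
          rw [ax, hg.inv_right.eq]; group
      _ = _ := by rw [e1]
  have c1 : ∀ s ∈ Q, s * x = x * s → a * s = s * a := fun s hs e => by
    have := q.xd.no10 ha (q.xd.cj a ha s) ox ax (i := 0) (q.q4 (a := a * (s * a * s⁻¹)) (by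
      have := mul_mem (q.md.lx.norm a az s hs) (inv_mem hs)
      rwa [ai, mul_assoc a, mul_assoc a] at this)) (cx s e) (by simp)
    rw [← mul_inv_eq_iff_eq_mul, ← mul_inv_eq_one, ai]
    simpa [mul_assoc] using this
  have cz : a * (h * a * h⁻¹) ∈ centralizer ({z} : Set G) := mem_centralizer_singleton_iff.2
    (Commute.mul_left az ((h1.mul_left az).mul_left h1.inv_left))
  obtain ⟨k, e⟩ := lift_cen hz ob hπ ⟨_, cz⟩ (cx h h2)
  obtain ⟨i, hi⟩ := q.dec hz hπ _ e (F.faith k (mem_centralizer_singleton_iff.1 k.2) fun v hv => by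
    obtain ⟨s, hs⟩ := q.md.ex' v
    have s1 := q.fix_mem ox hz hπ hs hv
    have s2 := c1 _ (q.md.lx.norm h⁻¹ h1.inv_left s (q.md.mem hs))
      ((h2.inv_left.mul_left s1).mul_left h2.inv_left.inv_left)
    have s3 : a * (h * a * h⁻¹) * s * (a * (h * a * h⁻¹))⁻¹ = s := by
      calc _ = a * h * (a * (h⁻¹ * s * h⁻¹⁻¹)) * a⁻¹ * h⁻¹ * a⁻¹ := by group
        _ = a * s * a⁻¹ := by rw [s2]; group
        _ = s := by rw [c1 s (q.md.mem hs) s1, mul_inv_cancel_right]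
    exact q.md.congr hs (s3 ▸ q.md.conj _ k e hs))
  have h4 := q.xd.no10 ha (q.xd.cj a ha h) ox ax (i := i) (q.q4 hi)
    ((cx h h2).mul_left (Commute.zpow_left rfl i).inv_left) (by simp)
  have h5 : a * h * a⁻¹ = x ^ i * h := by
    rw [← mul_inv_eq_one.1 h4, ai]; simp [mul_assoc]
  have h6 := congrArg (· ^ 2 ^ n) h5
  simp only [conj_pow, h3, (h2.zpow_right i).symm.mul_pow, mul_one, mul_inv_cancel] at h6
  rw [eq_one_of_odd (p := 5) (by decide) (by
    rw [← zpow_natCast, ← zpow_mul, mul_comm, zpow_mul, zpow_natCast, ← ox, pow_orderOf_eq_one,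
      one_zpow]) h6.symm, one_mul] at h5
  exact (mul_inv_eq_iff_eq_mul.1 h5).symm

theorem card_two (F : FixData b 8) (hT : ∀ v : leechLattice, permC b • v = v →
      sqNorm (v : Vec) = 32 → ∃ T : Subgroup Co0, 16 ∣ Nat.card T ∧
        ∀ k ∈ T, k * permC b = permC b * k ∧ ∃ w, k • v = v + (w + w))
    {t : G} (ht : t ∈ X) (htQ : t ∈ Q) (tx : x * t = t * x) :
    2 ^ 11 ∣ Nat.card ↥(centralizer ({z} : Set G) ⊓ centralizer {x} ⊓ centralizer {t}) := by
  have := finite_Co0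
  have M := q.md
  have x5 : x ^ 5 = 1 := ox ▸ pow_orderOf_eq_one x
  have b5 : permC b ^ 5 = 1 := permC_pow (ob ▸ pow_orderOf_eq_one b)
  have cls : ∀ {a v}, R a v → x * a = a * x → ∃ w, permC b • v = v + (w + w) := fun h e => by
    have h1 := M.conj _ _ hπ h
    rw [show ((⟨x, hz⟩ : centralizer _) : G) = x from rfl, e, mul_inv_cancel_right] at h1
    exact M.congr h h1
  obtain ⟨v, hv, nv⟩ := q.vec ht htQ
  obtain ⟨w, hw⟩ := cls hv tx
  obtain ⟨T, c1, c2⟩ := hT v (fix_odd b5 nv hw) nv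
  obtain ⟨t1, t2⟩ := M.ne_of_short hv (by omega) (by omega)
  obtain ⟨s, hs, s1, s2⟩ := lx_exists_fixed M.lx M.card (p := 5) (by norm_num) (by decide) x5
    (mem_centralizer_singleton_iff.1 hz) htQ t1 t2 tx
  have sz := mem_centralizer_singleton_iff.2 (M.lx.cen s hs)
  have h1 := M.card_pb (H := centralizer ({z} : Set G) ⊓ centralizer {x} ⊓ centralizer {t})
    (inf_le_left.trans inf_le_left)
  have h2 : T ≤ pb π (centralizer ({z} : Set G) ⊓ centralizer {x} ⊓ centralizer {t}) := fun k hk => by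
    obtain ⟨e0, w, hw⟩ := c2 k hk
    obtain ⟨h, e1, e2⟩ := exists_comm_lift π M.surj (p := 5) (by norm_num) (by
        rw [show π.ker = Q.subgroupOf _ from by
            ext h; rw [MonoidHom.mem_ker, M.ker, mem_subgroupOf],
          Nat.card_congr (subgroupOfEquivOfLe fun a ha =>
            mem_centralizer_singleton_iff.2 (M.lx.cen a ha)).toEquiv, M.card]
        norm_num) (β := ⟨x, hz⟩) (Subtype.ext x5) (k := (k : Spor.Co1)) (by
        rw [← hπ, ← QuotientGroup.mk_mul, ← QuotientGroup.mk_mul, e0])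
    have e3 : (h : G) ∈ centralizer ({x} : Set G) :=
      mem_centralizer_singleton_iff.2 (congrArg Subtype.val e2)
    rcases M.uniq (hw ▸ M.add_two hv w) (M.conj h k e1.symm hv) with e | e
    · exact mem_pb.2 ⟨h, ⟨⟨h.2, e3⟩, mem_centralizer_singleton_iff.2 (mul_inv_eq_iff_eq_mul.1 e)⟩,
        e1.symm⟩
    · refine mem_pb.2 ⟨⟨s, sz⟩⁻¹ * h, ⟨⟨(⟨s, sz⟩⁻¹ * h).2, (centralizer {x}).mul_mem
        ((centralizer {x}).inv_mem (mem_centralizer_singleton_iff.2 s1)) e3⟩, mem_centralizer_singleton_iff.2 ?_⟩, by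
          rw [map_mul, map_inv, (M.ker ⟨s, sz⟩).2 hs, inv_one, one_mul, e1]⟩
      change s⁻¹ * h * t = t * (s⁻¹ * h)
      calc _ = s⁻¹ * (h * t * (h : G)⁻¹) * h := by group
        _ = _ := by rw [e, ← s2]; group
  have h3 : Nat.card ↥(Q ⊓ centralizer {x}) = 512 := by
    have h4 := M.ncard_pre ((fun v : leechLattice => (v : leechLattice ⧸ twoL)) ''
      {v | permC b • v = v})
    rw [F.card] at h4
    rw [show 512 = 2 * 2 ^ 8 from rfl, ← h4, ← SetLike.coe_sort_coe, Nat.card_coe_set_eq]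
    congr 1
    ext a
    constructor
    · rintro ⟨ha, hax⟩
      obtain ⟨v, hv⟩ := M.ex a ha
      exact ⟨v, hv, exists_fixed_rep (by decide) b5
        (H15.mk_eq_iff'.2 (cls hv (mem_centralizer_singleton_iff.1 hax).symm))⟩
    · rintro ⟨v, hv, v', hv', e⟩
      exact ⟨M.mem hv, mem_centralizer_singleton_iff.2 (q.fix_mem ox hz hπ (M.of_mk_eq hv e) hv')⟩
  have h5 : (centralizer ({t} : Set G)).relIndex (Q ⊓ centralizer {x}) ∣ 2 :=
    relIindex_dvd_two_iff'.2 ⟨s⁻¹, inv_mem ⟨hs, mem_centralizer_singleton_iff.2 s1⟩, fun a ha => by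
      simp only [mem_centralizer_singleton_iff]
      refine (M.lx.comm a ha.1 t htQ).symm.imp (fun e => ?_) mul_inv_eq_iff_eq_mul.1
      calc _ = s⁻¹ * (a * t * a⁻¹) * a := by group
        _ = _ := by rw [e, ← s2]; group⟩
  have h6 := ((centralizer ({t} : Set G)).subgroupOf (Q ⊓ centralizer {x})).card_mul_index
  rw [h3, ← inf_subgroupOf_right, Nat.card_congr (subgroupOfEquivOfLe inf_le_right).toEquiv,
    inf_subgroupOf_right, ← relIndex] at h6
  have h7 : centralizer ({t} : Set G) ⊓ (Q ⊓ centralizer {x}) ≤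
      centralizer ({z} : Set G) ⊓ centralizer {x} ⊓ centralizer {t} ⊓ Q := fun a ha =>
    ⟨⟨⟨mem_centralizer_singleton_iff.2 (M.lx.cen a ha.2.1), ha.2.2⟩, ha.1⟩, ha.2.1⟩
  have h8 : 256 ∣ Nat.card ↥(centralizer ({t} : Set G) ⊓ (Q ⊓ centralizer {x})) := by
    rcases (Nat.dvd_prime Nat.prime_two).1 h5 with e | e <;> rw [e] at h6 <;> omega
  have h9 := Nat.mul_dvd_mul (h8.trans (card_dvd_of_le h7)) (c1.trans (card_dvd_of_le h2))
  rw [← h1] at h9
  omega

end

end QD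

end Cfsg.Agent.H58.HnM
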