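/-
The Harada–Norton group inside the Monster: the subgroup `A₁₂`.
-/
import Cfsg.Agent.H58.HnB

set_option autoImplicit false
set_option maxRecDepth 100000
set_option Elab.async false
set_option synthInstance.maxSize 4000

namespace Cfsg.Agent.H58.HnM

open Equiv (Perm swap)
open Equiv.Perm (sign)
open Subgroup MulAction H14 H15 H97

/-- a product of transpositions -/
def sw : List (Fin 12 × Fin 12) → Perm (Fin 12)
  | [] => 1
  | p :: l => swap p.1 p.2 * sw l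

def pT : Perm (Fin 12) := sw [(0, 1), (2, 3)]
def pT2 : Perm (Fin 12) := sw [(0, 1), (4, 5)]
def pT3 : Perm (Fin 12) := sw [(0, 1), (6, 7)]
def pZ : Perm (Fin 12) := sw [(0, 1), (2, 3), (4, 5), (6, 7)]
def pV : Perm (Fin 12) := sw [(8, 9), (10, 11)]
def pW : Perm (Fin 12) := sw [(0, 2), (1, 3), (4, 6), (5, 7)]
def pW2 : Perm (Fin 12) := sw [(0, 4), (1, 5), (2, 6), (3, 7)]
def pW3 : Perm (Fin 12) := sw [(0, 6), (1, 7), (2, 4), (3, 5)]
def pG : Perm (Fin 12) := sw [(0, 3), (3, 1), (1, 2), (4, 7), (7, 5), (5, 6)]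

variable {G : Type*} [Group G] {X : Set G}

theorem cjP (ψ : Perm (Fin 12) →* G) (l : List (Fin 12 × Fin 12)) (σ τ : Perm (Fin 12))
    (h : sw l * σ = τ * sw l := by decide +kernel) : ψ (sw l) * ψ σ * (ψ (sw l))⁻¹ = ψ τ := by
  rw [← map_mul, h, map_mul, mul_inv_cancel_right]

theorem eqP (ψ : Perm (Fin 12) →* G) (σ τ ρ : Perm (Fin 12)) (h : σ * τ = ρ := by decide +kernel) :
    ψ σ * ψ τ = ψ ρ := by rw [← map_mul, h]

theorem cmP (ψ : Perm (Fin 12) →* G) (σ τ : Perm (Fin 12)) (h : σ * τ = τ * σ := by decide +kernel) :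
    ψ σ * ψ τ = ψ τ * ψ σ := by rw [← map_mul, h, map_mul]

/-- the even permutations commuting with `pZ` -/
def SZ : Subgroup (Perm (Fin 12)) := centralizer {pZ} ⊓ alternatingGroup (Fin 12)

/-- an element of `SZ` -/
def el (σ : Perm (Fin 12)) (h : σ * pZ = pZ * σ ∧ sign σ = 1 := by decide +kernel) : SZ :=
  ⟨σ, mem_centralizer_singleton_iff.2 h.1, h.2⟩

theorem nu_one (ν : SZ →* alternatingFiveWreathTwo) (r s v i e : SZ) (hr : ν r ≠ 1) (he : ν e = 1)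
    (h : r.1 * r.1 * r.1 = 1 ∧ s.1 * s.1 * s.1 = 1 ∧ v.1 * v.1 = 1 ∧
      v.1 * s.1 * (v.1 * s.1) * (v.1 * s.1) = 1 ∧ r.1 * v.1 = v.1 * r.1 ∧
      i.1 * v.1 = v.1 * i.1 * e.1 ∧ s.1 * i.1 * s.1 = i.1) : ν v = 1 := by
  obtain ⟨h1, h2, h3, h4, h5, h6, h7⟩ := h
  refine wr_lemma (r := ν r) (s := ν s) (i := ν i) ?_ hr ?_ ?_ ?_ ?_ ?_ ?_
  · simpa using congrArg ν (show r * r * r = 1 from Subtype.ext h1)
  · simpa using congrArg ν (show s * s * s = 1 from Subtype.ext h2)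
  · simpa using congrArg ν (show v * v = 1 from Subtype.ext h3)
  · simpa using congrArg ν (show v * s * (v * s) * (v * s) = 1 from Subtype.ext h4)
  · simpa using congrArg ν (show r * v = v * r from Subtype.ext h5)
  · simpa [he] using congrArg ν (show i * v = v * i * e from Subtype.ext h6)
  · simpa using congrArg ν (show s * i * s = i from Subtype.ext h7)

/-- a copy of `S₁₂` whose even part centralises the dihedral group `⟨a, x⟩` of order 10 -/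
structure AD (X : Set G) (ψ : Perm (Fin 12) →* G) (a x : G) : Prop where
  inj : Function.Injective ψ
  x2 : ψ pT ∈ X
  ha : a ∈ X
  ox : orderOf x = 5
  ax : a * x * a⁻¹ = x⁻¹
  ca : ∀ σ, sign σ = 1 → Commute (ψ σ) a
  cx : ∀ σ, sign σ = 1 → Commute (ψ σ) x

namespace AD

variable [Finite G] {ψ : Perm (Fin 12) →* G} {a x : G} (A : AD X ψ a x) {Q : Subgroup G}
  {π : centralizer ({ψ pZ} : Set G) →* Spor.Co1} {R : G → leechLattice → Prop}
  (q : QD X (ψ pZ) Q π R)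
include A q

omit [Finite G] in
theorem x2' (l : List (Fin 12 × Fin 12)) (τ : Perm (Fin 12))
    (h : sw l * pT = τ * sw l := by decide +kernel) : ψ τ ∈ X :=
  cjP ψ l pT τ h ▸ q.xd.cj _ A.x2 _

omit [Finite G] in
theorem tQ : ψ pT ∈ Q ∧ ψ pT2 ∈ Q ∧ ψ pT3 ∈ Q :=
  ⟨q.crit _ A.x2 (map_mul ψ _ _ ▸ A.x2' q [(0, 4), (1, 5), (2, 6), (3, 7)] _),
    q.crit _ (A.x2' q [(2, 4), (3, 5)] _)
      (map_mul ψ _ _ ▸ A.x2' q [(0, 2), (1, 3), (2, 6), (3, 7), (4, 6), (5, 7)] _),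
    q.crit _ (A.x2' q [(2, 6), (3, 7), (4, 6), (5, 7)] _)
      (map_mul ψ _ _ ▸ A.x2' q [(0, 2), (1, 3), (2, 4), (3, 5)] _)⟩

theorem loc : ψ pW ∈ Q ∧ ψ pV ∈ Q ∧
    2 ^ 11 ∣ Nat.card ↥(centralizer ({a} : Set G) ⊓ centralizer {x} ⊓ centralizer {ψ pT}) := by
  have : Fact (Nat.Prime 5) := ⟨by norm_num⟩
  obtain ⟨b, ob, F, ⟨φ, hφ⟩, hT, u, u', nu, nu', du, fu, fu'⟩ := cen5
  obtain ⟨t1, t2, -⟩ := A.tQ q
  have hz : x ∈ centralizer ({ψ pZ} : Set G) :=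
    mem_centralizer_singleton_iff.2 (A.cx _ (by decide +kernel)).symm
  obtain ⟨j, k, hπ⟩ := q.exists_pos A.ox hz A.x2 (A.x2' q [(2, 4), (3, 5)] pT2) t1 t2
    (map_mul ψ _ _ ▸ A.x2' q [(0, 2), (1, 3), (2, 4), (3, 5)] _) (A.cx _ (by decide +kernel)).symm
    (A.cx _ (by decide +kernel)).symm ob nu nu' du fu fu'
  have q' := q.twist k
  have y5 : (x ^ j) ^ 5 = 1 := by
    rw [← zpow_natCast, ← zpow_mul, mul_comm, zpow_mul, zpow_natCast, ← A.ox, pow_orderOf_eq_one,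
      one_zpow]
  have oy : orderOf (x ^ j) = 5 := orderOf_eq_prime y5 fun e => by
    rw [show (⟨x ^ j, zpow_mem hz j⟩ : centralizer _) = 1 from Subtype.ext e, map_one, map_one,
      QuotientGroup.eq_one_iff, mem_center_iff'] at hπ
    have := orderOf_injective permHom permHom_injective b
    rw [permHom_apply, ob] at this
    rcases hπ with e | e <;> rw [e] at this
    · simp at this
    · rw [orderOf_negC] at this; omega
  have xy : x ∈ zpowers (x ^ j) := by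
    rw [eq_of_le_of_card_ge (zpowers_le.2 (zpow_mem_zpowers x j))
      (by rw [Nat.card_zpowers, Nat.card_zpowers, oy, A.ox])]
    exact mem_zpowers x
  have ay : a * x ^ j * a⁻¹ = (x ^ j)⁻¹ := by rw [← conj_zpow, A.ax, inv_zpow]
  obtain ⟨μ, m1, m2, m3⟩ := q'.exists_mu oy (zpow_mem hz j) ob hπ φ hφ
  let ι : SZ →* ↥(centralizer ({ψ pZ} : Set G) ⊓ centralizer {x ^ j}) :=
    (ψ.comp SZ.subtype).codRestrict _ fun σ => ⟨mem_centralizer_singleton_iff.2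
      (cmP ψ _ _ (mem_centralizer_singleton_iff.1 σ.2.1)),
      mem_centralizer_singleton_iff.2 ((A.cx _ σ.2.2).zpow_right j)⟩
  have n1 : ∀ r : SZ, r.1 * r.1 * r.1 = 1 ∧ r.1 ≠ 1 → μ.comp ι r ≠ 1 := fun r h e => h.2 (A.inj (by
    rw [map_one]
    exact congrArg Subtype.val (m3 _ e (by
      rw [← map_mul, ← map_mul, show r * r * r = 1 from Subtype.ext h.1, map_one]))))
  have n2 : ∀ v : SZ, v.1 * v.1 = 1 → μ.comp ι v = 1 → ψ v ∈ Q := fun v h e =>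
    m2 _ e (by rw [← map_mul, show v * v = 1 from Subtype.ext h, map_one])
  refine ⟨n2 (el pW) (by decide +kernel) (nu_one _ (el (sw [(8, 9), (9, 10)]))
      (el (sw [(0, 2), (2, 4), (1, 3), (3, 5)])) _ (el (sw [(0, 2), (1, 3), (6, 7), (8, 9)]))
      (el (pT * pZ)) (n1 _ (by decide +kernel))
      (m1 _ (show ψ (pT * pZ) ∈ Q from map_mul ψ _ _ ▸ mul_mem t1 q.md.lx.mem)) (by decide +kernel)),
    n2 (el pV) (by decide +kernel) (nu_one _ (el (sw [(0, 2), (2, 4), (1, 3), (3, 5)]))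
      (el (sw [(8, 9), (9, 10)])) _ (el (sw [(0, 2), (1, 3), (6, 7), (8, 9)])) 1
      (n1 _ (by decide +kernel)) (map_one _) (by decide +kernel)), ?_⟩
  obtain ⟨T, hT⟩ := Sylow.exists_subgroup_card_pow_prime 2 (q'.card_two oy (zpow_mem hz j) ob hπ F hT
    A.x2 t1 ((A.cx _ (by decide +kernel)).zpow_right j).symm)
  rw [← hT, ← card_map_of_injective (subtype_injective _)]
  refine card_dvd_of_le ?_
  rintro _ ⟨h, hh, rfl⟩
  obtain ⟨i, hi⟩ := xy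
  have c1 : Commute (h : G) (x ^ j) := mem_centralizer_singleton_iff.1 h.2.1.2
  have c2 := c1.zpow_right i
  rw [show (x ^ j) ^ i = x from hi] at c2
  exact ⟨⟨mem_centralizer_singleton_iff.2 (q'.cent_two oy (zpow_mem hz j) ob hπ F A.ha
    (A.ca _ (by decide +kernel)).symm ay (mem_centralizer_singleton_iff.1 h.2.1.1) c1 (n := 11)
    (by rw [← hT]; exact congrArg (fun y : T => (y.1 : G)) (pow_card_eq_one' (x := ⟨h, hh⟩)))),
    mem_centralizer_singleton_iff.2 c2⟩, h.2.2⟩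

/-- the elements `pT` and `pG` span a triangle of type 233 -/
theorem vecs : ∃ u w, R (ψ pT) u ∧ R (ψ pG) w ∧ sqNorm (u : Vec) = 32 ∧ sqNorm (w : Vec) = 48 ∧
    dotInt (u : Vec) (w : Vec) = -16 := by
  have M := q.md
  obtain ⟨w1, hv, -⟩ := A.loc q
  obtain ⟨t1, t2, t3⟩ := A.tQ q
  have w3 : ψ pW3 ∈ Q := cjP ψ [(0, 2), (2, 4), (1, 3), (3, 5)] pW pW3 ▸ M.lx.norm _ (cmP ψ _ _) _ w1
  have w2 : ψ pW2 ∈ Q := eqP ψ pW pW3 pW2 ▸ mul_mem w1 w3
  have x6 : ∀ l τ, sw l * (pZ * pV) = τ * sw l → ψ τ ∈ X := fun l τ h =>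
    cjP ψ l _ τ h ▸ q.xd.cj _ (map_mul ψ _ _ ▸ q.zmul (A.x2' q
      [(0, 8), (1, 9), (2, 10), (3, 11), (4, 8), (5, 9), (6, 10), (7, 11)] pV) hv) _
  have pr : ∀ w t l l' l'', ψ w ∈ Q → ψ t ∈ Q → sw l * (pZ * pV) = w * pV * sw l ∧
      sw l' * (pZ * pV) = w * t * pV * sw l' ∧ w * pV * (w * t * pV) = t ∧ sw l'' * pT = t * sw l'' →
      ∃ C D : leechLattice, (R (ψ (w * pV)) C ∧ sqNorm (C : Vec) = 32) ∧
        (R (ψ (w * t * pV)) D ∧ sqNorm (D : Vec) = 32) ∧ R (ψ t) (C + D) ∧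
        sqNorm ((C + D : leechLattice) : Vec) = 32 := fun w t l l' l'' hw ht h => by
    obtain ⟨C, D, h1, h2, h3, h4, h5⟩ := q.pair (x6 l _ h.1) (x6 l' _ h.2.1)
      (by rw [map_mul]; exact mul_mem hw hv) (by rw [map_mul, map_mul]; exact mul_mem (mul_mem hw ht) hv)
      (eqP ψ _ _ _ h.2.2.1 ▸ A.x2' q l'' t h.2.2.2)
    exact ⟨C, D, ⟨h1, h3⟩, ⟨h2, h4⟩, eqP ψ _ _ _ h.2.2.1 ▸ M.mul h1 h2, by
      rw [AddSubgroup.coe_add, sqNorm_add, h3, h4, h5]; rfl⟩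
  have sg : ∀ {c d t t' : G} {T : leechLattice}, R t' T → sqNorm (T : Vec) = 32 → t' * t ∈ X →
      (∃ C D : leechLattice, (R c C ∧ sqNorm (C : Vec) = 32) ∧ (R d D ∧ sqNorm (D : Vec) = 32) ∧
        R t (C + D) ∧ sqNorm ((C + D : leechLattice) : Vec) = 32) →
      ∃ C D : leechLattice, (R c C ∧ sqNorm (C : Vec) = 32) ∧ (R d D ∧ sqNorm (D : Vec) = 32) ∧
        R t (C + D) ∧ sqNorm ((C + D : leechLattice) : Vec) = 32 ∧
        dotInt (T : Vec) ((C + D : leechLattice) : Vec) = -16 := by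
    rintro c d t t' T h1 h2 h3 ⟨C, D, hC, hD, h4, h5⟩
    rcases q.dot16 h1 h4 h2 h5 h3 with e | e
    · refine ⟨-C, -D, ⟨M.neg hC.1, ?_⟩, ⟨M.neg hD.1, ?_⟩, ?_⟩
      · rw [AddSubgroup.coe_neg, sqNorm_neg, hC.2]
      · rw [AddSubgroup.coe_neg, sqNorm_neg, hD.2]
      · rw [← neg_add, AddSubgroup.coe_neg, sqNorm_neg, dot_neg_right, e]
        exact ⟨M.neg h4, h5, rfl⟩
    · exact ⟨C, D, hC, hD, h4, h5, e⟩
  obtain ⟨A1, B1, a1, b1, r1, n1⟩ := pr pW pT [(1, 2), (5, 6)] [(1, 3), (2, 3), (5, 6)] [] w1 t1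
    (by decide +kernel)
  obtain ⟨A2, B2, a2, b2, r2, n2, d2⟩ := sg r1 n1
    (map_mul ψ _ _ ▸ A.x2' q [(0, 2), (1, 3), (2, 4), (3, 5)] _)
    (pr pW2 pT2 [(1, 4), (2, 4), (3, 5), (5, 6)] [(1, 5), (2, 5), (3, 4), (4, 5), (5, 6)]
      [(2, 4), (3, 5)] w2 t2 (by decide +kernel))
  obtain ⟨A3, B3, a3, b3, r3, n3, d3⟩ := sg r1 n1
    (map_mul ψ _ _ ▸ A.x2' q [(0, 2), (1, 3), (2, 6), (3, 7), (4, 6), (5, 7)] _)
    (pr pW3 pT3 [(1, 6), (2, 6), (3, 7), (4, 6), (5, 6), (6, 7)]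
      [(1, 7), (2, 7), (3, 6), (4, 7), (5, 7)] [(2, 6), (3, 7), (4, 6), (5, 7)] w3 t3
      (by decide +kernel))
  have d4 : dotInt ((A2 + B2 : leechLattice) : Vec) ((A3 + B3 : leechLattice) : Vec) = -16 := by
    have h1 := M.zmul (M.mul r1 r2)
    rw [← map_mul, eqP ψ _ _ pT3] at h1
    obtain ⟨w, hw⟩ := M.congr h1 r3
    have h2 : sqNorm ((A1 + B1 + (A2 + B2) : leechLattice) : Vec) = 32 := by
      rw [AddSubgroup.coe_add, sqNorm_add, n1, n2, d2]; rfl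
    generalize A1 + B1 = T1, A2 + B2 = T2, A3 + B3 = T3 at *
    rcases (short_congr hw (by omega) (by omega) (by omega) (by omega)).2 (by omega) with e | e
    · rw [← e, AddSubgroup.coe_add, dot_add_right, dot_self] at d3
      omega
    · rw [← neg_eq_iff_eq_neg.2 e, AddSubgroup.coe_neg, dot_neg_right, AddSubgroup.coe_add,
        dot_add_right, dot_self, dot_comm]
      omega
  have z0 : ∀ {c d} {C D : leechLattice} (l), (R (ψ c) C ∧ sqNorm (C : Vec) = 32) →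
      (R (ψ d) D ∧ sqNorm (D : Vec) = 32) → sw l * pZ = c * d * sw l ∧ c * d ≠ pZ →
      dotInt (C : Vec) (D : Vec) = 0 := fun l h1 h2 h => q.dot0 h1.1 h2.1 h1.2 h2.2
    (map_mul ψ _ _ ▸ isConj_iff.2 ⟨_, cjP ψ l _ _ h.1⟩) fun e => h.2 (A.inj (map_mul ψ _ _ ▸ e))
  have z8 : ∀ {c d} {C D : leechLattice}, (R (ψ c) C ∧ sqNorm (C : Vec) = 32) →
      (R (ψ d) D ∧ sqNorm (D : Vec) = 32) → c * d * (c * d) ≠ 1 →
      dotInt (C : Vec) (D : Vec) = 8 ∨ dotInt (C : Vec) (D : Vec) = -8 := fun h1 h2 h =>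
    q.dot8 h1.1 h2.1 h1.2 h2.2 fun e => h (A.inj (by simpa using e))
  have e1 := z0 [(1, 6), (2, 6), (3, 7), (4, 6), (5, 6), (6, 7)] a1 a2 (by decide +kernel)
  have e2 := z0 [(1, 7), (2, 7), (3, 6), (4, 7), (5, 7)] b1 b2 (by decide +kernel)
  have e3 := z0 [(1, 4), (2, 4), (3, 5), (5, 6)] a1 a3 (by decide +kernel)
  have e4 := z0 [(1, 5), (2, 5), (3, 4), (4, 5), (5, 6)] b1 b3 (by decide +kernel)
  have e5 := z0 [(1, 2), (5, 6)] a2 a3 (by decide +kernel)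
  have e6 := z0 [(1, 3), (2, 3), (5, 6)] b2 b3 (by decide +kernel)
  have f1 := z8 a1 b2 (by decide +kernel)
  have f2 := z8 b1 a2 (by decide +kernel)
  have f3 := z8 a1 b3 (by decide +kernel)
  have f4 := z8 b1 a3 (by decide +kernel)
  have f5 := z8 a2 b3 (by decide +kernel)
  have f6 := z8 b2 a3 (by decide +kernel)
  refine ⟨_, A3 + B2, r1, eqP ψ (pW3 * pV) (pW2 * pT2 * pV) pG ▸ M.mul a3.1 b2.1, n1, ?_, ?_⟩ <;>
    simp only [AddSubgroup.coe_add, dot_add_left, dot_add_right] at d2 d3 d4 ⊢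
  · rw [sqNorm_add, a3.2, b2.2, dot_comm]; omega
  · omega

end AD

end Cfsg.Agent.H58.HnM
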