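import Mathlib

/-! Rank 3 actions: the orbital graph, and the transport of an action along the point stabiliser. -/

set_option autoImplicit false

namespace Cfsg.Agent.H58.R3

open MulAction

/-- an equivariant embedding from matching stabilisers -/
theorem exists_equivariant {A X Y ι : Type*} [Group A] [Finite A] [MulAction A X] [MulAction A Y]
    (u : ι → X) (v : ι → Y) (n : ι → ℕ) (hn : Function.Injective n)
    (hu : ∀ i, (orbit A (u i)).ncard = n i) (hv : ∀ i, (orbit A (v i)).ncard = n i)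
    (hf : ∀ i (g : A), g • u i = u i → g • v i = v i) (hc : ∀ x, ∃ i, x ∈ orbit A (u i)) :
    ∃ f : X → Y, Function.Injective f ∧ (∀ (g : A) x, f (g • x) = g • f x) ∧ ∀ i, f (u i) = v i := by
  have h0 : ∀ i, stabilizer A (u i) = stabilizer A (v i) := fun i => by
    refine eq_of_le_of_not_lt (fun g hg => hf i g hg) fun hlt => ?_
    have := Subgroup.index_strictAnti hlt
    rw [index_stabilizer, index_stabilizer, hu, hv] at this
    exact lt_irrefl _ this
  have h : ∀ (g : A) i j, g • u i = u j ↔ g • v i = v j := fun g i j => by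
    constructor
    · intro e
      obtain rfl : i = j := hn (by rw [← hu, ← hu, ← e, orbit_smul])
      exact hf i g e
    · intro e
      obtain rfl : i = j := hn (by rw [← hv, ← hv, ← e, orbit_smul])
      exact (h0 i).ge e
  have h2 : ∀ (g g' : A) i j, g • u i = g' • u j ↔ g • v i = g' • v j := fun g g' i j => by
    rw [← inv_smul_eq_iff, ← inv_smul_eq_iff, ← mul_smul, ← mul_smul, h]
  choose i g hg using hc
  have k : ∀ (a : A) j, g (a • u j) • v (i (a • u j)) = a • v j := fun a j => (h2 _ _ _ _).1 (hg _)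
  refine ⟨fun x => g x • v (i x), fun x y e => ?_, fun a x => ?_, fun j => ?_⟩
  · exact (hg x).symm.trans (((h2 _ _ _ _).2 e).trans (hg y))
  · have := k (a * g x) (i x)
    rw [mul_smul, show g x • u (i x) = x from hg x, mul_smul] at this
    exact this
  · simpa using k 1 j

variable (G : Type*) {Ω : Type*} [Group G] [MulAction G Ω]

/-- the orbital of `(a, b)` -/
def Adj (a b x y : Ω) : Prop := ∃ g : G, g • a = x ∧ g • b = y

/-- a rank 3 action with subdegrees `1, k, l` -/
structure Hyp (a b c : Ω) (k l : ℕ) : Prop where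
  tr : IsPretransitive G Ω
  card : Nat.card Ω = 1 + k + l
  hb : (orbit (stabilizer G a) b).ncard = k
  hc : (orbit (stabilizer G a) c).ncard = l
  hkl : k ≠ l
  hk : 1 < k
  hl : 1 < l

variable {G} {a b c : Ω} {k l : ℕ}

theorem Adj.smul {x y : Ω} (h : Adj G a b x y) (g : G) : Adj G a b (g • x) (g • y) :=
  let ⟨s, h1, h2⟩ := h; ⟨g * s, by rw [mul_smul, h1], by rw [mul_smul, h2]⟩

theorem adj_smul {x y : Ω} (g : G) : Adj G a b (g • x) (g • y) ↔ Adj G a b x y :=
  ⟨fun h => by simpa using h.smul g⁻¹, fun h => h.smul g⟩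

theorem adj_a {y : Ω} : Adj G a b a y ↔ y ∈ orbit (stabilizer G a) b :=
  ⟨fun ⟨g, h1, h2⟩ => ⟨⟨g, h1⟩, h2⟩, fun ⟨g, h⟩ => ⟨g.1, g.2, h⟩⟩

theorem ncard_adj (g : G) : {y | Adj G a b (g • a) y}.ncard = (orbit (stabilizer G a) b).ncard := by
  rw [← Set.ncard_image_of_injective (orbit _ b) (MulAction.injective g)]
  congr 1
  ext y
  constructor
  · intro h
    refine ⟨g⁻¹ • y, adj_a.1 ?_, by simp⟩
    simpa using Adj.smul h g⁻¹
  · rintro ⟨z, hz, rfl⟩
    exact (adj_a.2 hz).smul g

theorem orbit_eq_adj (x y : Ω) : orbit (stabilizer G x) y = {z | Adj G x y x z} :=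
  Set.ext fun _ => adj_a.symm

theorem ncard_sub_smul (g : G) (x y : Ω) :
    (orbit (stabilizer G (g • x)) (g • y)).ncard = (orbit (stabilizer G x) y).ncard := by
  rw [← ncard_adj (a := x) g, orbit_eq_adj]
  congr 1
  ext z
  constructor
  · rintro ⟨s, h1, h2⟩; exact ⟨s * g, by rw [mul_smul, h1], by rw [mul_smul, h2]⟩
  · rintro ⟨s, h1, h2⟩
    exact ⟨s * g⁻¹, by rw [mul_smul, inv_smul_smul, h1], by rw [mul_smul, inv_smul_smul, h2]⟩

theorem ncard_sub_eq (x y : Ω) :
    (orbit (stabilizer G x) y).ncard = (stabilizer G y).relIndex (stabilizer G x) := by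
  rw [← index_stabilizer]; rfl

theorem ncard_sub_comm [IsPretransitive G Ω] [Finite Ω] (x y : Ω) :
    (orbit (stabilizer G x) y).ncard = (orbit (stabilizer G y) x).ncard := by
  have h1 := Subgroup.relIndex_mul_index (inf_le_left : stabilizer G x ⊓ stabilizer G y ≤ _)
  have h2 := Subgroup.relIndex_mul_index (inf_le_right : stabilizer G x ⊓ stabilizer G y ≤ _)
  rw [Subgroup.inf_relIndex_left, index_stabilizer_of_transitive] at h1
  rw [Subgroup.inf_relIndex_right, index_stabilizer_of_transitive, ← h1] at h2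
  have : Nonempty Ω := ⟨x⟩
  rw [ncard_sub_eq, ncard_sub_eq]
  exact (Nat.eq_of_mul_eq_mul_right Nat.card_pos h2).symm

theorem orbit_self (a : Ω) : orbit (stabilizer G a) a = {a} :=
  Set.eq_singleton_iff_unique_mem.2 ⟨mem_orbit_self _, fun _ ⟨g, h⟩ => h ▸ g.2⟩

theorem not_mem_orbit (h : 1 < (orbit (stabilizer G a) b).ncard) : a ∉ orbit (stabilizer G a) b := by
  intro e
  rw [← orbit_eq_iff.2 e, orbit_self, Set.ncard_singleton] at h
  exact lt_irrefl _ h

namespace Hyp

variable (h : Hyp G a b c k l)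
include h

theorem finite : Finite Ω := Nat.finite_of_card_ne_zero (by rw [h.card]; omega)

theorem disj {y : Ω} (h1 : y ∈ orbit (stabilizer G a) b) : y ∉ orbit (stabilizer G a) c := fun h2 =>
  h.hkl (by rw [← h.hb, ← h.hc, ← orbit_eq_iff.2 h1, orbit_eq_iff.2 h2])

theorem cover (y : Ω) : y = a ∨ y ∈ orbit (stabilizer G a) b ∨ y ∈ orbit (stabilizer G a) c := by
  have := h.finite
  have h1 : insert a (orbit (stabilizer G a) b ∪ orbit (stabilizer G a) c) = Set.univ := by
    refine Set.eq_of_subset_of_ncard_le (Set.subset_univ _) ?_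
    rw [Set.ncard_univ, h.card, Set.ncard_insert_of_notMem, Set.ncard_union_eq, h.hb, h.hc]
    · omega
    · exact Set.disjoint_left.2 fun _ => h.disj
    · exact fun e => e.elim (not_mem_orbit (h.hb ▸ h.hk)) (not_mem_orbit (h.hc ▸ h.hl))
  exact (h1 ▸ Set.mem_univ y : y ∈ insert a _)

theorem cnt (x : Ω) : {y | Adj G a b x y}.ncard = k := by
  have := h.tr
  obtain ⟨g, rfl⟩ := exists_smul_eq G a x
  rw [ncard_adj, h.hb]

theorem irrefl (x : Ω) : ¬ Adj G a b x x := fun ⟨g, h1, h2⟩ =>
  not_mem_orbit (h.hb ▸ h.hk) (MulAction.injective g (h1.trans h2.symm) ▸ mem_orbit_self _)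

theorem symm {x y : Ω} (e : Adj G a b x y) : Adj G a b y x := by
  have := h.tr
  have := h.finite
  obtain ⟨s, rfl, rfl⟩ := e
  refine Adj.smul ?_ s
  obtain ⟨g, hg⟩ := exists_smul_eq G b a
  rw [← adj_smul g, hg, adj_a]
  rcases h.cover (g • a) with e | e | e
  · exact absurd ⟨g, e, hg⟩ (h.irrefl a)
  · exact e
  · refine absurd ?_ h.hkl
    rw [← h.hc, ← orbit_eq_iff.2 e, ncard_sub_comm, ← h.hb, ← ncard_sub_smul g a b, hg]

/-- a primitive rank 3 graph has diameter two -/
theorem exists_adj (hd : ¬ k + 1 ∣ Nat.card Ω) : ∃ y ∈ orbit (stabilizer G a) b, Adj G a b y c := by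
  have := h.tr
  have := h.finite
  by_contra hn
  push Not at hn
  have h1 : ∀ y z, Adj G a b a y → Adj G a b y z → a = z ∨ Adj G a b a z := fun y z hy hz => by
    rcases h.cover z with e | e | ⟨s, rfl⟩
    · exact Or.inl e.symm
    · exact Or.inr (adj_a.2 e)
    · refine absurd ?_ (hn (s⁻¹ • y) (mem_orbit_of_mem_orbit _ (adj_a.1 hy)))
      have := hz.smul (s⁻¹ : stabilizer G a).1
      rwa [show (s⁻¹ : stabilizer G a).1 • s • c = c from inv_smul_smul s c] at this
  have h2 : ∀ x y z, x = y ∨ Adj G a b x y → y = z ∨ Adj G a b y z → x = z ∨ Adj G a b x z := by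
    rintro x y z (rfl | hy) hz
    · exact hz
    rcases hz with rfl | hz
    · exact Or.inr hy
    obtain ⟨g, rfl⟩ := exists_smul_eq G a x
    rcases h1 (g⁻¹ • y) (g⁻¹ • z) (by simpa using hy.smul g⁻¹) (hz.smul _) with e | e
    · exact Or.inl (by rw [e, smul_inv_smul])
    · exact Or.inr (by simpa using e.smul g)
  have h3 : IsBlock G {y | a = y ∨ Adj G a b a y} := by
    refine isBlock_iff_smul_eq_of_mem.2 fun g x hx hg => Set.eq_of_subset_of_ncard_le ?_
      (Set.ncard_smul_set _ _).ge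
    rintro _ ⟨t, ht, rfl⟩
    refine h2 _ _ _ hg ?_
    rcases h2 x a t (hx.imp Eq.symm h.symm) ht with e | e
    · exact Or.inl (congrArg _ e)
    · exact Or.inr (e.smul g)
  have h4 := h3.ncard_dvd_card ⟨a, Or.inl rfl⟩
  rw [show {y | a = y ∨ Adj G a b a y} = insert a {y | Adj G a b a y} from
    Set.ext fun _ => or_congr_left eq_comm, Set.ncard_insert_of_notMem (s := {y | Adj G a b a y}) (h.irrefl a), h.cnt] at h4
  exact hd h4

/-- a neighbour `y` of `a` with a large joint stabiliser of `a, y, c` -/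
theorem exists_big (hd : ¬ k + 1 ∣ Nat.card Ω) : ∃ g : stabilizer G a, Nat.card (stabilizer G a) ≤
    k * (k * Nat.card ↥(stabilizer (stabilizer G a) (g • b) ⊓ stabilizer (stabilizer G a) c)) := by
  have := h.finite
  obtain ⟨_, ⟨g, rfl⟩, hy⟩ := h.exists_adj hd
  refine ⟨g, ?_⟩
  set T := stabilizer (stabilizer G a) (g • b)
  rw [← T.index_mul_card, index_stabilizer, orbit_smul, h.hb, ← (stabilizer T c).index_mul_card,
    index_stabilizer, ← Nat.card_congr (Subgroup.subgroupOfEquivOfLe inf_le_left).toEquiv,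
    Subgroup.inf_subgroupOf_left]
  refine Nat.mul_le_mul_left _ (Nat.mul_le_mul_right _ ?_)
  rw [← h.cnt (g • b)]
  refine Set.ncard_le_ncard ?_
  rintro _ ⟨t, rfl⟩
  have h1 := hy.smul t.1.1
  rwa [show t.1.1 • g • b = g • b from t.2] at h1

theorem card_eq : Nat.card G = (1 + k + l) * Nat.card (stabilizer G a) := by
  have := h.tr
  rw [← h.card, ← index_stabilizer_of_transitive G a, Subgroup.index_mul_card]

end Hyp

theorem card_map_stab {S : Type*} [Group S] {ψ : G →* S} (hψ : Function.Injective ψ) (b : Ω) :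
    (orbit G b).ncard * Nat.card ((stabilizer G b).map ψ) = Nat.card ψ.range := by
  rw [Subgroup.card_map_of_injective hψ, ← index_stabilizer, Subgroup.index_mul_card,
    Nat.card_congr (MonoidHom.ofInjective hψ).toEquiv]

/-- two subgroups of the same order generating a group of at most twice that order -/
theorem eq_of_card_sup {Γ : Type*} [Group Γ] [Finite Γ] {X Y : Subgroup Γ} [IsSimpleGroup Y]
    (h1 : Nat.card X = Nat.card Y) (h2 : Nat.card ↥(X ⊔ Y) ≤ 2 * Nat.card Y) (h3 : 2 < Nat.card Y) :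
    X = Y := by
  have h4 : X.relIndex (X ⊔ Y) * _ = _ := (X.subgroupOf (X ⊔ Y)).index_mul_card
  rw [Nat.card_congr (Subgroup.subgroupOfEquivOfLe le_sup_left).toEquiv, h1] at h4
  have h5 : X.relIndex (X ⊔ Y) ≤ 2 := Nat.le_of_mul_le_mul_right (h4 ▸ h2) (by omega)
  have h6 : (X.subgroupOf Y).index ≤ 2 :=
    (Subgroup.relIndex_le_of_le_right le_sup_right Subgroup.index_ne_zero_of_finite).trans h5
  have h7 : (X.subgroupOf Y).index ≠ 0 := Subgroup.index_ne_zero_of_finite
  have h8 : (X.subgroupOf Y).index = 1 := by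
    by_contra h
    rcases (Subgroup.normal_of_index_eq_two (show (X.subgroupOf Y).index = 2 by omega)).eq_bot_or_eq_top
      with e | e
    · rw [e, Subgroup.index_bot] at h6; omega
    · exact h (by rw [e, Subgroup.index_top])
  exact (Subgroup.eq_of_le_of_card_ge (Subgroup.relIndex_eq_one.1 h8) h1.le).symm

end Cfsg.Agent.H58.R3
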