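import Cfsg.Agent.H58.Rank3
import Cfsg.Agent.H58.Graph2
import Cfsg.Agent.H57.WL

/-! Recognition of rank 3 groups through a model; subgroups of given order in a model. -/

set_option autoImplicit false

namespace Cfsg.Agent.H58

open MulAction

section
variable {G : Type*} [Group G]

/-- the conjugate `g⁻¹ K g` -/
def cj (K : Subgroup G) (g : G) : Subgroup G := K.comap (MulAut.conj g).toMonoidHom

theorem mem_cj {K : Subgroup G} {g x : G} : x ∈ cj K g ↔ g * x * g⁻¹ ∈ K := Iff.rfl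

theorem card_cj (K : Subgroup G) (g : G) : Nat.card (cj K g) = Nat.card K :=
  Nat.card_congr ((MulAut.conj g).toEquiv.subtypeEquiv fun _ => Iff.rfl)

theorem cj_le {K H : Subgroup G} {g : G} (h : K ≤ H) (hg : g ∈ H) : cj K g ≤ H := fun x hx => by
  simpa [mul_assoc] using H.mul_mem (H.mul_mem (H.inv_mem hg) (h hx)) hg

theorem exists_le_cj [Finite G] {K P : Subgroup G} {p : ℕ} (hp : p.Prime) (hK : ¬ p ∣ K.index)
    (hP : IsPGroup p P) : ∃ g, P ≤ cj K g := by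
  have := Fact.mk hp
  obtain ⟨S⟩ : Nonempty (Sylow p K) := inferInstance
  have h1 : ¬ p ∣ ((S : Subgroup K).map K.subtype).index := by
    rw [Subgroup.index_map_subtype, hp.dvd_mul]
    exact not_or.2 ⟨S.not_dvd_index, hK⟩
  obtain ⟨Q, hQ⟩ := hP.exists_le_sylow
  obtain ⟨s, hs⟩ := exists_smul_eq G Q ((S.isPGroup'.map K.subtype).toSylow h1)
  refine ⟨s, fun x hx => Subgroup.map_subtype_le (S : Subgroup K) ?_⟩
  have h2 : s * x * s⁻¹ ∈ s • Q := Subgroup.smul_mem_pointwise_smul x (MulAut.conj s) _ (hQ hx)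
  rw [hs] at h2
  exact h2

theorem isPGroup_clW {el : ℕ → G} {ws : List (List ℕ)} {p : ℕ}
    (hc : ∀ a ∈ ws, ∀ b ∈ ws, wv el (a ++ b) = wv el (b ++ a)) (hp : ∀ a ∈ ws, wv el a ^ p = 1) :
    IsPGroup p (clW el ws) := by
  have h1 : clW el ws ≤ Subgroup.centralizer (clW el ws) := clW_le fun a ha =>
    Subgroup.mem_centralizer_iff.2 fun g hg => (Subgroup.mem_centralizer_singleton_iff.1
      (clW_le (K := Subgroup.centralizer {wv el a}) (fun b hb =>
        Subgroup.mem_centralizer_singleton_iff.2 (by simpa [wv] using hc b hb a ha)) hg))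
  rintro ⟨g, hg⟩
  refine ⟨1, Subtype.ext ?_⟩
  show g ^ p ^ 1 = 1
  rw [pow_one]
  induction hg using Subgroup.closure_induction with
  | mem x hx => obtain ⟨w, hw, rfl⟩ := hx; exact hp w hw
  | one => exact one_pow _
  | mul x y hx hy h2 h3 =>
    rw [Commute.mul_pow (Subgroup.mem_centralizer_iff.1 (h1 hy) x hx), h2, h3, mul_one]
  | inv x _ h2 => rw [inv_pow, h2, inv_one]

theorem clW_le_normalizer [Finite G] {el : ℕ → G} {nw pw : List (List ℕ)}
    (h : ∀ n ∈ nw, ∀ w ∈ pw, ∃ s, wv el (n ++ w) = wv el ((subW pw [s]).flatten ++ n)) :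
    clW el nw ≤ Subgroup.normalizer (clW el pw : Set G) := clW_le fun n hn =>
  Subgroup.mem_normalizer_fintype fun x hx => clW_le (K := cj (clW el pw) (wv el n)) (fun w hw => by
    obtain ⟨s, e⟩ := h n hn w hw
    have e2 : wv el n * wv el w = wv el (subW pw [s]).flatten * wv el n := by simpa [wv] using e
    rw [mem_cj, e2, mul_inv_cancel_right]
    exact clW_subW_le el pw [s] (wv_mem_clW _ (by simp [subW]))) hx

theorem RuleOK.of_inj {K : Type*} [Group K] (f : G →* K) (hf : Function.Injective f) {e : ℕ → G}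
    {rels : List (List ℕ)} {iv : ℕ} (R : RuleOK (fun x => f (e x)) rels iv) : RuleOK e rels iv :=
  ⟨hf (R.h0.trans f.map_one.symm), fun x hx => hf ((R.hinv x hx).trans (f.map_inv _).symm),
    fun r hr => hf ((map_wv f e r).trans ((R.hrel r hr).trans f.map_one.symm)), R.hlt⟩

end

/-- a group generated by networks -/
noncomputable def permModel {nets : List Net} {N : ℕ} (hN : NetsOK nets N) {gens : List ℕ}
    (h : ∀ x, elN nets x ∈ clL (elN nets) gens) : Model (clL (elN nets) gens) :=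
  ⟨fun x => ⟨_, h x⟩, nets, N, Subgroup.subtype _, hN, fun _ => rfl⟩

theorem permModel_top {nets : List Net} {N : ℕ} (hN : NetsOK nets N) {gens : List ℕ}
    (h : ∀ x, elN nets x ∈ clL (elN nets) gens) : clL (permModel hN h).el gens = ⊤ :=
  Subgroup.map_injective (Subgroup.subtype_injective _) (by
    rw [clL_map, ← MonoidHom.range_eq_map, Subgroup.range_subtype]; rfl)

/-- the masks grown from the representatives partition `full`; entries: point, size, schedule -/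
noncomputable def partErr (nets : List Net) (ws : List (List ℕ)) (k full : ℕ)
    (l : List (ℕ × ℕ × List ℕ)) : ℕ → ℕ :=
  List.rec (motive := fun _ => ℕ → ℕ) (fun U => Nat.xor U full)
    (fun e _ ih U => frcN (fun O => Nat.add (Nat.add (cntErr k e.2.1 O) (Nat.land O U))
      (frcN ih (Nat.lor O U))) (bfsC nets ws e.2.2 (Nat.mul e.1 (nat_lit 9973)) (Nat.pow 2 e.1))) l

theorem appC_eq (nets : List Net) (w : List ℕ) : ∀ c c' v, appC nets w c v = appC nets w c' v := by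
  induction w with
  | nil => exact fun _ _ _ => rfl
  | cons x w ih =>
    exact fun c c' v => (frcN_eq _ _).trans ((ih (c + x) (c' + x) _).trans (frcN_eq _ _).symm)

theorem bfsC_eq (nets : List Net) (ws : List (List ℕ)) (s : List ℕ) :
    ∀ c c' R, bfsC nets ws s c R = bfsC nets ws s c' R := by
  induction s with
  | nil => exact fun _ _ _ => rfl
  | cons x s ih =>
    refine fun c c' R => (frcN_eq _ _).trans (((ih (c + 1) (c' + 1) _).trans ?_).trans (frcN_eq _ _).symm)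
    rw [appC_eq nets _ c c']; rfl

/-- entries: a point and a word that sends `p` to it (`b = true`), or it to `p` -/
noncomputable def tblErr (nets : List Net) (p : ℕ) (b : Bool) (l : List (ℕ × List ℕ)) : ℕ :=
  List.rec (motive := fun _ => ℕ) 0 (fun e _ ih => Nat.add (Bool.rec
    (Nat.xor (appW nets e.2 (Nat.pow 2 p)) (Nat.pow 2 e.1))
    (Nat.xor (appW nets e.2 (Nat.pow 2 e.1)) (Nat.pow 2 p)) b) ih) l

def cjW (iv : ℕ) (pw : List (List ℕ)) (us : List (ℕ × List ℕ)) : List (List ℕ) :=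
  pw ++ us.flatMap fun u => pw.map fun w => u.2 ++ w ++ invw iv u.2

/-- the words `pw` and some conjugates generate a transitive group -/
noncomputable def farErr (nets : List Net) (iv : ℕ) (pw : List (List ℕ)) (full : ℕ)
    (l : List (List (ℕ × List ℕ) × List ℕ)) : ℕ :=
  List.rec (motive := fun _ => ℕ) 0 (fun e _ ih => Nat.add (Nat.add (tblErr nets 0 true e.1)
    (Nat.xor (bfs nets (cjW iv pw e.1) e.2 (Nat.pow 2 0)) full)) ih) l

/-- rows of a graph from a table of words -/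
noncomputable def rowT (nets : List Net) (D : ℕ) (tbl : List (ℕ × List ℕ)) (d : ℕ → ℕ) (x : ℕ) : ℕ :=
  List.rec (motive := fun _ => ℕ) (d x)
    (fun e _ ih => Bool.rec ih (appW nets e.2 D) (Nat.beq e.1 x)) tbl

theorem bits_full (N : ℕ) : bits (Nat.pred (Nat.pow 2 N)) = Set.Ico 0 N := by
  simpa using bits_ico 0 N

namespace Model

variable {G : Type*} [Group G] (M : Model G)

theorem card_eq_orb (K : Subgroup G) (p : ℕ) :
    Nat.card K = (M.orb K p).ncard * Nat.card ↥(K ⊓ M.St p) := by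
  rw [← M.relIndex_St, ← Nat.card_congr (Subgroup.subgroupOfEquivOfLe
    (inf_le_left : K ⊓ M.St p ≤ K)).toEquiv, Subgroup.inf_subgroupOf_left]
  exact ((M.St p).subgroupOf K).index_mul_card.symm

variable {M}

theorem mem_orb_self (K : Subgroup G) (p : ℕ) : p ∈ M.orb K p := ⟨1, K.one_mem, by simp⟩

theorem orb_mono {K H : Subgroup G} (h : K ≤ H) (p : ℕ) : M.orb K p ⊆ M.orb H p :=
  fun _ ⟨g, hg, e⟩ => ⟨g, h hg, e⟩

theorem apply_mem_orb {K : Subgroup G} {p y : ℕ} {g : G} (hg : g ∈ K) :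
    M.φ g y ∈ M.orb K p ↔ y ∈ M.orb K p := by
  have h : ∀ g ∈ K, ∀ y ∈ M.orb K p, M.φ g y ∈ M.orb K p := by
    rintro g hg _ ⟨s, hs, rfl⟩
    exact ⟨g * s, K.mul_mem hg hs, by simp⟩
  exact ⟨fun e => by simpa using h _ (K.inv_mem hg) _ e, h g hg y⟩

theorem orb_eq_of_mem {K : Subgroup G} {p q : ℕ} (h : q ∈ M.orb K p) : M.orb K q = M.orb K p := by
  obtain ⟨g, hg, rfl⟩ := h
  ext y
  constructor
  · rintro ⟨s, hs, rfl⟩; exact ⟨s * g, K.mul_mem hs hg, by simp⟩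
  · rintro ⟨s, hs, rfl⟩; exact ⟨s * g⁻¹, K.mul_mem hs (K.inv_mem hg), by simp⟩

theorem mem_cj_St {g x : G} {p : ℕ} : x ∈ cj (M.St (M.φ g p)) g ↔ x ∈ M.St p := by
  simp [mem_cj, mem_St]

theorem card_cj_inf (K : Subgroup G) (g : G) (p : ℕ) :
    Nat.card ↥(cj K g ⊓ M.St p) = Nat.card ↥(K ⊓ M.St (M.φ g p)) := by
  rw [← card_cj (K ⊓ M.St (M.φ g p)) g]
  exact congrArg (fun X : Subgroup G => Nat.card X)
    (Subgroup.ext fun x => and_congr_right fun _ => mem_cj_St.symm)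

theorem mem_orb_cj {K : Subgroup G} {g : G} {p y : ℕ} :
    y ∈ M.orb (cj K g) p ↔ M.φ g y ∈ M.orb K (M.φ g p) := by
  constructor
  · rintro ⟨s, hs, rfl⟩; exact ⟨_, hs, by simp⟩
  · rintro ⟨s, hs, e⟩
    exact ⟨g⁻¹ * s * g, by simpa [mem_cj, mul_assoc] using hs, by simp [e]⟩

theorem le_St_of_cj {K : Subgroup G} {g : G} {p : ℕ} (h : cj K g ≤ M.St p) : K ≤ M.St (M.φ g p) :=
  fun x hx => by
    have h1 : g⁻¹ * x * g ∈ M.St p := h (by simpa [mem_cj, mul_assoc] using hx)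
    simpa [mul_assoc, mem_cj] using (mem_cj_St (g := g)).2 h1

/-- a Sylow subgroup has a fixed point in an orbit of length prime to `p` -/
theorem exists_fix [Finite G] {H K : Subgroup G} (hK : K ≤ H) {p n x : ℕ} (hp : p.Prime)
    (h1 : ¬ p ∣ (M.orb H x).ncard) (h2 : p ^ n ∣ Nat.card K) :
    ∃ g ∈ H, p ^ n ∣ Nat.card ↥(cj K g ⊓ M.St x) := by
  have := Fact.mk hp
  let _ : MulAction G ℕ := MulAction.compHom ℕ M.φ
  obtain ⟨Q, hQ⟩ := Sylow.exists_subgroup_card_pow_prime p h2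
  let _ : MulAction Q (orbit H x) := MulAction.compHom _ ((Subgroup.inclusion hK).comp Q.subtype)
  have e : M.orb H x = orbit H x :=
    Set.ext fun _ => ⟨fun ⟨g, hg, e⟩ => ⟨⟨g, hg⟩, e⟩, fun ⟨g, e⟩ => ⟨g.1, g.2, e⟩⟩
  obtain ⟨⟨_, g, rfl⟩, hy⟩ := (IsPGroup.of_card hQ).nonempty_fixed_point_of_prime_not_dvd_card
    (orbit H x) (by rwa [Nat.card_coe_set_eq, ← e])
  refine ⟨g, g.2, ?_⟩
  rw [card_cj_inf, ← hQ, ← Subgroup.card_map_of_injective K.subtype_injective]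
  refine Subgroup.card_dvd_of_le ?_
  rintro _ ⟨q, hq, rfl⟩
  exact ⟨q.2, congrArg Subtype.val (hy ⟨q, hq⟩)⟩

open Classical in
theorem part_spec {K : Subgroup G} {ws : List (List ℕ)} (hws : ∀ w ∈ ws, wv M.el w ∈ K) {k full : ℕ}
    {l : List (ℕ × ℕ × List ℕ)} : ∀ U, partErr M.nets ws k full l U = 0 →
      (∀ y ∈ bits full, y ∈ bits U ∨ ∃ e ∈ l, y ∈ M.orb K e.1) ∧
      (∀ e ∈ l, (M.orb K e.1).Finite → e.2.1 ≤ (M.orb K e.1).ncard) ∧
      ∀ A : Set ℕ, (∀ g ∈ K, ∀ y, M.φ g y ∈ A ↔ y ∈ A) → (A ∩ bits full).ncard =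
        (A ∩ bits U).ncard + (l.map fun e => if e.1 ∈ A then e.2.1 else 0).sum := by
  induction l with
  | nil =>
    intro U h
    rw [show U = full from Nat.eq_of_xor_eq_zero h]
    exact ⟨fun _ h => Or.inl h, by simp, by simp⟩
  | cons a l ih =>
    intro U h
    set O := bfsC M.nets ws a.2.2 (a.1 * 9973) (2 ^ a.1) with hO
    have h' : cntErr k a.2.1 O + (O &&& U) + partErr M.nets ws k full l (O ||| U) = 0 := by
      rw [← frcN_eq (partErr M.nets ws k full l), ← h]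
      exact (frcN_eq (fun O => cntErr k a.2.1 O + (O &&& U) +
        frcN (partErr M.nets ws k full l) (O ||| U)) O).symm
    obtain ⟨h1, h2, h3⟩ := ih (O ||| U) (by omega)
    have h4 : bits O ⊆ M.orb K a.1 := M.bits_subset_orb hws (M.bits_pow_subset K _) (bfsC_eq _ _ _ _ _ _)
    have h5 : (bits O).ncard = a.2.1 := ncard_of_cntErr (k := k) (by omega)
    have h6 : bits (O ||| U) = bits O ∪ bits U := Set.ext fun j => by simp [bits]
    have h7 : Disjoint (bits O) (bits U) := Set.disjoint_left.2 fun j h1 h2 => by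
      have := congrArg (·.testBit j) (show O &&& U = 0 by omega)
      simp only [Nat.testBit_and, show O.testBit j = true from h1, show U.testBit j = true from h2,
        Nat.zero_testBit] at this
      exact absurd this (by decide)
    refine ⟨fun y hy => ?_, List.forall_mem_cons.2 ⟨fun hf => h5 ▸ Set.ncard_le_ncard h4 hf, h2⟩,
      fun A hA => ?_⟩
    · rcases h1 y hy with e | ⟨e, he, h⟩
      · exact (h6 ▸ e : y ∈ bits O ∪ bits U).elim (fun e => Or.inr ⟨a, List.mem_cons_self, h4 e⟩) Or.inl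
      · exact Or.inr ⟨e, List.mem_cons_of_mem _ he, h⟩
    · rw [h3 A hA, h6, Set.inter_union_distrib_left, Set.ncard_union_eq
        (h7.mono Set.inter_subset_right Set.inter_subset_right) ((bits_finite _).inter_of_right _)
        ((bits_finite _).inter_of_right _), List.map_cons, List.sum_cons]
      have h8 : ∀ y ∈ bits O, y ∈ A ↔ a.1 ∈ A := fun y hy => by
        obtain ⟨g, hg, rfl⟩ := h4 hy
        exact hA g hg _
      split_ifs with h9
      · rw [Set.inter_eq_right.2 fun y hy => (h8 y hy).2 h9, h5]; omega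
      · rw [Set.eq_empty_of_forall_notMem fun y (hy : y ∈ A ∩ bits O) => h9 ((h8 y hy.2).1 hy.1)]
        simp

theorem tbl_spec {p : ℕ} {b : Bool} {l : List (ℕ × List ℕ)} : tblErr M.nets p b l = 0 →
    ∀ e ∈ l, if b then M.φ (wv M.el e.2) p = e.1 else M.φ (wv M.el e.2) e.1 = p := by
  induction l with
  | nil => intro _ e he; simp at he
  | cons a l ih =>
    intro h
    have h' := Nat.add_eq_zero_iff.1 (show _ + tblErr M.nets p b l = 0 from h)
    refine List.forall_mem_cons.2 ⟨?_, ih h'.2⟩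
    cases b <;> exact M.apply_wv' (Nat.eq_of_xor_eq_zero h'.1)

theorem conj_mem {P K : Subgroup G} (hN : M.St 0 ≤ Subgroup.normalizer (P : Set G)) (hK : P ≤ K)
    {g : G} (hg : M.φ g 0 ∈ M.orb K 0) {x : G} (hx : x ∈ P) : g * x * g⁻¹ ∈ K := by
  obtain ⟨s, hs, e⟩ := hg
  have h1 : s⁻¹ * g ∈ M.St 0 := by simp [mem_St, ← e]
  have h2 := hK ((Subgroup.mem_normalizer_iff.1 (hN h1) x).1 hx)
  simpa [mul_assoc] using K.mul_mem (K.mul_mem hs h2) (K.inv_mem hs)

theorem far_spec (hgen : Subgroup.closure (Set.range M.el) = ⊤) (h0 : 0 < M.N) {iv : ℕ}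
    (hinv : ∀ x < 64, M.el (ivf iv x) = (M.el x)⁻¹) {pw : List (List ℕ)} {K : Subgroup G}
    (hN : M.St 0 ≤ Subgroup.normalizer (clW M.el pw : Set G)) (hK : clW M.el pw ≤ K)
    {l : List (List (ℕ × List ℕ) × List ℕ)} (hl : l.all (fun e => allLt (e.1.map Prod.snd)) = true) :
    farErr M.nets iv pw (Nat.pred (Nat.pow 2 M.N)) l = 0 → ∀ e ∈ l, (∀ u ∈ e.1, u.1 ∈ M.orb K 0) →
      clW M.el pw ≤ K.normalCore := by
  induction l with
  | nil => intro _ e he; simp at he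
  | cons a l ih =>
    intro h
    rw [List.all_cons, Bool.and_eq_true] at hl
    have h' := Nat.add_eq_zero_iff.1 (show tblErr M.nets 0 true a.1 + _ + farErr M.nets iv pw _ l = 0 from h)
    refine List.forall_mem_cons.2 ⟨fun hu x hx g => conj_mem hN hK ?_ hx, ih hl.2 h'.2⟩
    have h1 := Nat.add_eq_zero_iff.1 h'.1
    refine M.bits_subset_orb (fun w hw => ?_) (M.bits_pow_subset K 0) (Nat.eq_of_xor_eq_zero h1.2) ?_
    · rcases List.mem_append.1 hw with hw | hw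
      · exact hK (wv_mem_clW _ hw)
      obtain ⟨u, hu1, hw⟩ := List.mem_flatMap.1 hw
      obtain ⟨v, hv, rfl⟩ := List.mem_map.1 hw
      have h2 : ∀ x ∈ u.2, x < 64 := by
        have := hl.1
        simp only [allLt, List.all_eq_true, Nat.ble_eq] at this
        exact fun x hx => Nat.lt_succ_of_le (this _ (List.mem_map_of_mem hu1) x hx)
      rw [wv, List.map_append, List.map_append, List.prod_append, List.prod_append, prod_invw hinv _ h2]
      exact conj_mem hN hK ((show M.φ (wv M.el u.2) 0 = u.1 from tbl_spec h1.1 u hu1) ▸ hu u hu1)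
        (wv_mem_clW _ hv)
    · rw [bits_full]; exact M.orb_subset_lt hgen ⊤ h0 ⟨g, trivial, rfl⟩

variable (M)

/-- a graph on the points that is invariant under the stabiliser of `0` -/
structure Good (k p : ℕ) (R : ℕ → ℕ → Prop) : Prop where
  inv : ∀ h ∈ M.St 0, ∀ x y, R x y → R (M.φ h x) (M.φ h y)
  symm : ∀ x y, R x y → R y x
  irrefl : ∀ x, ¬ R x x
  lt : ∀ x y, R x y → y < M.N
  cnt : ∀ x < M.N, {y | R x y}.ncard = k
  zero : ∀ y, R 0 y ↔ y ∈ M.orb (M.St 0) p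

/-- the orbital of `(0, p)` -/
def R0 (p x y : ℕ) : Prop := ∃ g, M.φ g 0 = x ∧ M.φ g p = y

open Classical in
noncomputable def dflt (p x : ℕ) : ℕ := Nat.ofBits fun y : Fin M.N => decide (M.R0 p x y)

variable {M}

theorem R0.map {p x y : ℕ} (h : M.R0 p x y) (g : G) : M.R0 p (M.φ g x) (M.φ g y) :=
  let ⟨s, h1, h2⟩ := h; ⟨g * s, by simp [h1], by simp [h2]⟩

theorem r0_map {p x y : ℕ} (g : G) : M.R0 p (M.φ g x) (M.φ g y) ↔ M.R0 p x y :=
  ⟨fun h => by simpa using h.map g⁻¹, fun h => h.map g⟩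

theorem r0_iff {p x y D : ℕ} (hD : M.orb (M.St 0) p = bits D) {w : List ℕ}
    (h : M.φ (wv M.el w) x = 0) : M.R0 p x y ↔ (appW M.nets w D).testBit y = true := by
  rw [← r0_map (wv M.el w), h, testBit_appW M.hN, ← M.φ_wv]
  exact ⟨fun ⟨g, h1, h2⟩ => (hD ▸ ⟨g, h1, h2⟩ : _ ∈ bits D),
    fun e => let ⟨g, h1, h2⟩ : _ ∈ M.orb (M.St 0) p := hD ▸ e; ⟨g, h1, h2⟩⟩

theorem r0_iff' {p x y D R : ℕ} (hD : M.orb (M.St 0) p = bits D) {w : List ℕ}
    (h : appW M.nets w (2 ^ 0) = 2 ^ x) (hR : appW M.nets w D = R) :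
    R.testBit y = true ↔ M.R0 p x y := hR ▸ (r0_iff hD (M.apply_wv' h)).symm

theorem testBit_rowT {p D : ℕ} (hD : M.orb (M.St 0) p = bits D) {l : List (ℕ × List ℕ)}
    (h : tblErr M.nets 0 false l = 0) (x : ℕ) (y : Fin M.N) :
    (rowT M.nets D l (M.dflt p) x).testBit y = true ↔ M.R0 p x y := by
  have h1 := tbl_spec h
  clear h
  induction l with
  | nil => show (M.dflt p x).testBit y = true ↔ _; simp [dflt, Nat.testBit_ofBits_lt _ _ y.2]
  | cons a l ih =>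
    show Nat.testBit (Bool.rec (rowT M.nets D l (M.dflt p) x) (appW M.nets a.2 D) (Nat.beq a.1 x)) y = true ↔ _
    cases e : Nat.beq a.1 x
    · exact ih fun e he => h1 e (List.mem_cons_of_mem _ he)
    · exact (r0_iff hD (Nat.eq_of_beq_eq_true e ▸ h1 a List.mem_cons_self)).symm

/-- a bound for the automorphism group of the orbital graph -/
theorem aut_le {p D a b : ℕ} (hD : M.orb (M.St 0) p = bits D) {t : List (ℕ × List ℕ)}
    (h : tblErr M.nets 0 false t = 0) (hN : M.N ≤ a * b) {l : List H57.WL.Ins}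
    (hc : H57.WL.run M.N a b (2 ^ M.N - 1) (rowT M.nets D t (M.dflt p)) (fun _ => 0)
      (List.range M.N) l [] = true) (K : Subgroup (Equiv.Perm (Fin M.N)))
    (hK : ∀ g ∈ K, ∀ i j : Fin M.N, M.R0 p (g i) (g j) ↔ M.R0 p i j) : Nat.card K ≤ H57.WL.prodI l :=
  H57.WL.card_le hN (fun _ _ _ _ _ => rfl) (fun g hg i j => by
    rw [Bool.eq_iff_iff, testBit_rowT hD h, testBit_rowT hD h, hK g hg])
    (fun g _ hx => Equiv.ext fun x => hx x (List.mem_range.2 x.2)) (by simp) hc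

theorem Good.iff {k p : ℕ} {R : ℕ → ℕ → Prop} (h : M.Good k p R) {g : G} (hg : g ∈ M.St 0) (x y : ℕ) :
    R (M.φ g x) (M.φ g y) ↔ R x y :=
  ⟨fun e => by simpa using h.inv _ ((M.St 0).inv_mem hg) _ _ e, h.inv g hg x y⟩

open Classical in
/-- the valency as a sum of orbit lengths -/
theorem Good.row {k p : ℕ} {R : ℕ → ℕ → Prop} (h : M.Good k p R) {x j : ℕ} (hx : x < M.N)
    {ws : List (List ℕ)} (hws : fixErr M.nets ws [0, x] = 0) {l : List (ℕ × ℕ × List ℕ)}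
    (hl : partErr M.nets ws j (Nat.pred (Nat.pow 2 M.N)) l 0 = 0) :
    (l.map fun e => if R x e.1 then e.2.1 else 0).sum = k := by
  have h1 := (part_spec (K := M.fixK ⊤ [0, x]) (fun w hw => M.mem_fixK.2 ⟨trivial, fun q hq =>
    M.clW_le_St (fixErr_zero hws q hq) (wv_mem_clW _ hw)⟩) 0 hl).2.2 {y | R x y} fun g hg y => by
      have := h.iff hg.2 x y
      rwa [show M.φ g x = x from hg.1.2] at this
  rw [bits_full, (Set.inter_eq_left (s := {y | R x y})).2 fun y hy =>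
    Set.mem_Ico.2 ⟨Nat.zero_le _, h.lt x y hy⟩, h.cnt x hx,
    show bits 0 = ∅ from Set.ext fun j => by simp [bits], Set.inter_empty, Set.ncard_empty,
    zero_add] at h1
  exact h1.symm

/-- a row is known from its values at orbit representatives -/
theorem Good.row_iff (hgen : Subgroup.closure (Set.range M.el) = ⊤) {k p : ℕ} (hp : p < M.N)
    {R : ℕ → ℕ → Prop} (h : M.Good k p R) {x j : ℕ}
    {ws : List (List ℕ)} (hws : fixErr M.nets ws [0, x] = 0) {l : List (ℕ × ℕ × List ℕ)}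
    (hl : partErr M.nets ws j (Nat.pred (Nat.pow 2 M.N)) l 0 = 0)
    (he : ∀ e ∈ l, R x e.1 ↔ M.R0 p x e.1) : ∀ z ∈ M.orb (M.St 0) x, ∀ y, R z y ↔ M.R0 p z y := by
  rintro _ ⟨s, hs, rfl⟩ y
  obtain ⟨y, rfl⟩ := (M.φ s).surjective y
  rw [h.iff hs, r0_map]
  rcases Nat.lt_or_ge y M.N with hy | hy
  · rcases (part_spec (K := M.fixK ⊤ [0, x]) (fun w hw => M.mem_fixK.2 ⟨trivial, fun q hq =>
      M.clW_le_St (fixErr_zero hws q hq) (wv_mem_clW _ hw)⟩) 0 hl).1 y
      (bits_full _ ▸ ⟨Nat.zero_le _, hy⟩) with e | ⟨e, h1, g, hg, rfl⟩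
    · simp [bits] at e
    · have h2 := h.iff hg.2 x e.1
      have h3 := r0_map (M := M) (p := p) (x := x) (y := e.1) g
      rw [show M.φ g x = x from hg.1.2] at h2 h3
      rw [h2, h3, he e h1]
  · exact iff_of_false (fun e => absurd (h.lt _ _ e) (by omega)) fun ⟨g, _, e⟩ =>
      absurd (perm_lt (M.φ_fix hgen g) hp) (by omega)

theorem exists_big {Γ Ω : Type*} [Group Γ] [MulAction Γ Ω] {a b c : Ω} {k l : ℕ}
    (h : R3.Hyp Γ a b c k l) (hd : ¬ k + 1 ∣ Nat.card Ω) [Finite G] {ψ : stabilizer Γ a →* G}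
    (hψ : Function.Injective ψ) (hr : ψ.range = M.St 0) {p : ℕ}
    (hb : (stabilizer (stabilizer Γ a) b).map ψ ≤ M.St p) : ∃ d ∈ M.orb (M.St 0) p,
    Nat.card (M.St 0) ≤ k * (k * Nat.card ↥((stabilizer (stabilizer Γ a) c).map ψ ⊓ M.St d)) := by
  obtain ⟨g, hg⟩ := h.exists_big hd
  refine ⟨_, ⟨ψ g, hr ▸ ⟨g, rfl⟩, rfl⟩, ?_⟩
  rw [← hr, ← Nat.card_congr (MonoidHom.ofInjective hψ).toEquiv]
  refine hg.trans (Nat.mul_le_mul_left _ (Nat.mul_le_mul_left _ ?_))
  rw [← Subgroup.card_map_of_injective hψ]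
  refine Subgroup.card_le_of_le ?_
  rintro _ ⟨t, ht, rfl⟩
  refine ⟨⟨t, ht.2, rfl⟩, ?_⟩
  have h1 : M.φ (ψ (g⁻¹ * t * g)) p = p := hb ⟨_, show (g⁻¹ * t * g) • b = b by
    rw [mul_smul, mul_smul, show t • g • b = g • b from ht.1, inv_smul_smul], rfl⟩
  simpa [mem_St, Equiv.symm_apply_eq] using h1

/-- recognition of a rank 3 group -/
theorem iso_of {Γ Ω : Type*} [Group Γ] [MulAction Γ Ω] [FaithfulSMul Γ Ω] {a b c : Ω} {k l : ℕ}
    (h : R3.Hyp Γ a b c k l) [Finite G] [IsSimpleGroup G]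
    (hgen : Subgroup.closure (Set.range M.el) = ⊤) (hinj : Function.Injective M.φ)
    (htr : M.N ≤ (M.orb ⊤ 0).ncard) (hN : M.N = 1 + k + l) (ψ : stabilizer Γ a →* G)
    (hψ : Function.Injective ψ) (hr : ψ.range = M.St 0) {δ σ p q : ℕ} (hδN : δ < M.N) (hσN : σ < M.N)
    (hδ : (M.orb (M.St 0) δ).ncard = k) (hσ : (M.orb (M.St 0) σ).ncard = l)
    (hp : p ∈ M.orb (M.St 0) δ) (hq : q ∈ M.orb (M.St 0) σ)
    (hb : (stabilizer (stabilizer Γ a) b).map ψ ≤ M.St p)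
    (hc : (stabilizer (stabilizer Γ a) c).map ψ ≤ M.St q)
    (hu : ∀ R, M.Good k δ R → ∀ z ∈ M.orb (M.St 0) δ ∪ M.orb (M.St 0) σ, ∀ y, R z y ↔ M.R0 δ z y)
    (hbd : ∀ K : Subgroup (Equiv.Perm (Fin M.N)),
      (∀ g ∈ K, ∀ i j : Fin M.N, M.R0 δ (g i) (g j) ↔ M.R0 δ i j) → Nat.card K ≤ 2 * Nat.card G) :
    Nonempty (Γ ≃* G) := by
  have := h.finite
  have : Finite (stabilizer Γ a) := Finite.of_injective _ hψ
  let _ : MulAction (stabilizer Γ a) ℕ := MulAction.compHom ℕ (M.φ.comp ψ)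
  have h0 : 0 < M.N := by omega
  have e1 : ∀ x, orbit (stabilizer Γ a) x = M.orb (M.St 0) x := fun x => Set.ext fun y =>
    ⟨fun ⟨g, e⟩ => ⟨ψ g, hr ▸ ⟨g, rfl⟩, e⟩, fun ⟨g, hg, e⟩ => by
      obtain ⟨s, rfl⟩ : g ∈ ψ.range := hr ▸ hg
      exact ⟨s, e⟩⟩
  have e0 : M.orb (M.St 0) 0 = {0} :=
    Set.eq_singleton_iff_unique_mem.2 ⟨mem_orb_self _ _, fun _ ⟨_, hg, e⟩ => e ▸ hg⟩
  have hk := h.hk
  have hl := h.hl
  have hkl := h.hkl
  obtain ⟨f, f1, f2, f3⟩ := R3.exists_equivariant (A := stabilizer Γ a) ![a, b, c] ![0, p, q] ![1, k, l]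
    (by intro i j; fin_cases i <;> fin_cases j <;> simp <;> omega)
    (by intro i; fin_cases i; exacts [by simp [R3.orbit_self], h.hb, h.hc])
    (by
      intro i; rw [e1]; fin_cases i
      exacts [by simp [e0], (orb_eq_of_mem hp).symm ▸ hδ, (orb_eq_of_mem hq).symm ▸ hσ])
    (by
      intro i g e; fin_cases i
      exacts [(hr ▸ ⟨g, rfl⟩ : ψ g ∈ M.St 0), hb ⟨g, e, rfl⟩, hc ⟨g, e, rfl⟩])
    (fun x => (h.cover x).elim (fun e => ⟨0, e ▸ mem_orbit_self _⟩)
      fun e => e.elim (fun e => ⟨1, e⟩) fun e => ⟨2, e⟩)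
  have fa : f a = 0 := f3 0
  have fb : ∀ y, f y ∈ M.orb (M.St 0) δ ↔ y ∈ orbit (stabilizer Γ a) b := fun y => by
    rw [← orb_eq_of_mem hp, ← e1, ← show f b = p from f3 1]
    exact ⟨fun ⟨g, e⟩ => ⟨g, f1 ((f2 g b).trans e)⟩, fun ⟨g, e⟩ => ⟨g, e ▸ (f2 g b).symm⟩⟩
  have fc : ∀ y ∈ orbit (stabilizer Γ a) c, f y ∈ M.orb (M.St 0) σ := fun y ⟨g, e⟩ => by
    rw [← orb_eq_of_mem hq, ← e1, ← show f c = q from f3 2]
    exact ⟨g, e ▸ (f2 g c).symm⟩
  have f4 : ∀ x, f x < M.N := fun x => by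
    rcases h.cover x with rfl | e | e
    exacts [fa ▸ h0, (M.orb_subset_lt hgen _ hδN ((fb x).2 e)).2, (M.orb_subset_lt hgen _ hσN (fc x e)).2]
  let e : Ω ≃ Fin M.N := Equiv.ofBijective (fun x => ⟨f x, f4 x⟩)
    ((Nat.bijective_iff_injective_and_card _).2 ⟨fun x y e => f1 (congrArg Fin.val e), by
      rw [h.card, ← hN]; simp⟩)
  have f5 : ∀ i : Fin M.N, f (e.symm i) = i := fun i => congrArg Fin.val (e.apply_symm_apply i)
  let R : ℕ → ℕ → Prop := fun x y => ∃ u v, f u = x ∧ f v = y ∧ R3.Adj Γ a b u v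
  have r1 : ∀ u v, R (f u) (f v) ↔ R3.Adj Γ a b u v := fun u v =>
    ⟨fun ⟨_, _, h1, h2, h3⟩ => f1 h1 ▸ f1 h2 ▸ h3, fun e => ⟨u, v, rfl, rfl, e⟩⟩
  have hR : M.Good k δ R := by
    refine ⟨?_, fun x y ⟨u, v, h1, h2, h3⟩ => ⟨v, u, h2, h1, h.symm h3⟩,
      fun x ⟨u, v, h1, h2, h3⟩ => h.irrefl u (f1 (h2.trans h1.symm) ▸ h3),
      fun x y ⟨u, v, _, h2, _⟩ => h2 ▸ f4 v, fun x hx => ?_, fun y => ?_⟩
    · rintro g hg _ _ ⟨u, v, rfl, rfl, h3⟩
      obtain ⟨s, rfl⟩ : g ∈ ψ.range := hr ▸ hg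
      exact ⟨s • u, s • v, f2 s u, f2 s v, h3.smul s.1⟩
    · rw [← h.cnt (e.symm ⟨x, hx⟩), ← Set.ncard_image_of_injective {y | R3.Adj Γ a b _ y} f1]
      congr 1
      ext y
      exact ⟨fun ⟨u, v, h1, h2, h3⟩ => ⟨v, f1 (h1.trans (f5 ⟨x, hx⟩).symm) ▸ h3, h2⟩,
        fun ⟨v, h1, h2⟩ => ⟨_, v, f5 ⟨x, hx⟩, h2, h1⟩⟩
    · constructor
      · rintro ⟨u, v, h1, rfl, h3⟩
        exact (fb v).2 (R3.adj_a.1 (f1 (h1.trans fa.symm) ▸ h3))
      · intro hy
        have h1 := f5 ⟨y, (M.orb_subset_lt hgen _ hδN hy).2⟩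
        exact ⟨a, _, fa, h1, R3.adj_a.2 ((fb _).1 (h1.symm ▸ hy))⟩
  have r2 : ∀ u v, R3.Adj Γ a b u v ↔ M.R0 δ (f u) (f v) := fun u v => by
    rw [← r1]
    rcases h.cover u with rfl | e | e
    · rw [fa, hR.zero]; exact ⟨fun ⟨g, h1, h2⟩ => ⟨g, h1, h2⟩, fun ⟨g, h1, h2⟩ => ⟨g, h1, h2⟩⟩
    · exact hu R hR _ (Or.inl ((fb u).2 e)) _
    · exact hu R hR _ (Or.inr (fc u e)) _
  let χ : Γ →* Equiv.Perm (Fin M.N) := e.permCongrHom.toMonoidHom.comp (toPermHom Γ Ω)
  have hχ : Function.Injective χ := e.permCongrHom.injective.comp toPerm_injective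
  have hi : Function.Injective (M.finHom hgen) := by
    rw [injective_iff_map_eq_one]
    intro g hg
    apply hinj
    rw [map_one]
    ext j
    rcases Nat.lt_or_ge j M.N with hj | hj
    · exact congrArg (fun p : Equiv.Perm (Fin M.N) => (p ⟨j, hj⟩).val) hg
    · exact M.φ_fix hgen g j hj
  let T : Subgroup (Equiv.Perm (Fin M.N)) :=
    { carrier := {g | ∀ i j : Fin M.N, M.R0 δ (g i) (g j) ↔ M.R0 δ i j}
      mul_mem' := fun h1 h2 i j => (h1 _ _).trans (h2 i j)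
      one_mem' := fun _ _ => Iff.rfl
      inv_mem' := fun {g} h1 i j => by simpa using (h1 (g⁻¹ i) (g⁻¹ j)).symm }
  have hT : χ.range ⊔ (M.finHom hgen).range ≤ T := by
    refine sup_le ?_ ?_
    · rintro _ ⟨g, rfl⟩ i j
      rw [← f5 i, ← f5 j, ← r2, ← R3.adj_smul g, r2]
      rfl
    · rintro _ ⟨g, rfl⟩ i j
      exact r0_map g
  have j1 := MonoidHom.ofInjective hχ
  have j2 := MonoidHom.ofInjective hi
  have := j2.symm.isSimpleGroup
  have c1 : Nat.card G = M.N * Nat.card (M.St 0) := by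
    rw [← M.index_St hgen h0 htr, Subgroup.index_mul_card]
  have c2 := Nat.card_congr j2.toEquiv
  have c3 : 0 < Nat.card (M.St 0) := Nat.card_pos
  have h9 := R3.eq_of_card_sup (X := χ.range) (Y := (M.finHom hgen).range)
    (by rw [← c2, ← Nat.card_congr j1.toEquiv, h.card_eq, c1, hN, ← hr,
      Nat.card_congr (MonoidHom.ofInjective hψ).toEquiv])
    (c2 ▸ (Subgroup.card_le_of_le hT).trans (hbd T fun _ hg => hg)) (by rw [← c2, c1]; nlinarith)
  exact ⟨(j1.trans (MulEquiv.subgroupCongr h9)).trans j2.symm⟩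

end Model

end Cfsg.Agent.H58
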