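import Cfsg.Agent.H17.MatG
import Cfsg.Agent.H40.Col

/-! Sparse matrices acting on packed rows; root elements of Chevalley groups as sparse matrices. -/

set_option autoImplicit false

namespace Cfsg.Agent.H58.Sp

open H17 Matrix Cfsg.Lie

/-- terms: row, column, coefficient -/
abbrev Tm := List (ℕ × ℕ × ℕ)

noncomputable def spr (M0 w : ℕ) (L : Tm) (x : ℕ) : ℕ :=
  List.rec (motive := fun _ => ℕ) x (fun e _ ih => Nat.add (Nat.shiftLeft (Nat.mul
    (Nat.land (Nat.shiftRight x (Nat.mul w e.1)) M0) e.2.2) (Nat.mul w e.2.1)) ih) L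

/-- the identity matrix plus the terms -/
def smat (p n : ℕ) (L : Tm) : Matrix (Fin n) (Fin n) (ZMod p) :=
  1 + Matrix.of fun k c => (L.map fun e => if e.1 = k.1 ∧ e.2.1 = c.1 then (e.2.2 : ZMod p) else 0).sum

def TOK (E : Eng) (L : Tm) : Prop :=
  L.length < E.n ∧ ∀ e ∈ L, e.1 < E.n ∧ e.2.1 < E.n ∧ e.2.2 ≤ Eng.ones E.t

noncomputable def mapS (E : Eng) (m : ℕ) (tb : ℕ → Tm) (w : List ℕ) : ℕ → ℕ → ℕ :=
  List.rec (motive := fun _ => ℕ → ℕ → ℕ) (fun _ v => v)
    (fun x _ ih c v => frcN (ih (Nat.succ c)) (red E m (spr (E.M0 m) E.w (tb x) (slt v c)))) w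

section
variable {E : Eng} (hE : E.OK)
include hE

theorem dg_tm {m x k c0 co : ℕ} (hx : Bd E x) (h1 : c0 < E.n) (h2 : co ≤ Eng.ones E.t) (a : ℕ) {c : ℕ}
    (hc : c < E.n) : dg E.w ((((x >>> (E.w * k)) &&& E.M0 m) * co) <<< (E.w * c0)) (a * E.n + c) =
      (if a < m then dg E.w x (a * E.n + k) else 0) * if c = c0 then co else 0 := by
  have hw : 0 < E.w := by have := hE.2.2.1; omega
  have h3 : co < 2 ^ E.w := h2.trans_lt (ones_lt' hE.2.2.1.le)
  have h4 : ∀ i, dg E.w (2 ^ (E.w * c0) * co) i = if i = c0 then co else 0 := fun i => by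
    rw [dg_mul, dg_pow hw]
    · split_ifs <;> simp
    · intro j; rw [dg_pow hw]; split_ifs <;> simp [h3]
  have h5 : 2 ^ (E.w * c0) * co < 2 ^ (E.w * E.n) :=
    (Nat.mul_lt_mul_of_pos_left h3 (by positivity)).trans_le (by
      rw [← pow_add]; exact Nat.pow_le_pow_right (by norm_num) (by nlinarith))
  have h6 : (2 ^ (E.w * c0) * co) &&& E.MT 1 = 2 ^ (E.w * c0) * co :=
    dg_ext E.n (Nat.and_le_left.trans_lt h5) h5 fun i hi => by
      rw [dg_and, show dg E.w (E.MT 1) i = _ from dg_rp_mul hw (ones_lt' hE.2.2.1.le) (1 * E.n) i,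
        if_pos (by omega), h4]
      split_ifs
      · exact (Nat.and_two_pow_sub_one_eq_mod _ _).trans (Nat.mod_eq_of_lt (h2.trans_lt (ones_lt _)))
      · simp
  have h7 : ∀ i, dg E.w (x >>> (E.w * k)) i = dg E.w x (i + k) := fun i => by
    rw [Nat.shiftRight_eq_div_pow, dg_div]
  rw [Nat.shiftLeft_eq, mul_assoc, mul_comm co, dg_term hE (fun i => (h7 i).trans_le (hx _)) h6 a hc,
    h4, h7]

theorem dg_spr {m x : ℕ} (hx : Bd E x) (L : Tm) (hL : TOK E L) : ∀ a c, c < E.n →
    dg E.w (spr (E.M0 m) E.w L x) (a * E.n + c) ≤ (L.length + 1) * (Eng.ones E.t * Eng.ones E.t) ∧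
    (a < m → dg E.w (spr (E.M0 m) E.w L x) (a * E.n + c) = dg E.w x (a * E.n + c) +
      (L.map fun e => dg E.w x (a * E.n + e.1) * if c = e.2.1 then e.2.2 else 0).sum) := by
  induction L with
  | nil => exact fun a c _ => ⟨(hx _).trans (by simpa using Nat.le_mul_self _), fun _ => rfl⟩
  | cons e L ih =>
    intro a c hc
    have h0 := hL.2 e List.mem_cons_self
    have ih' := ih ⟨(Nat.lt_succ_self _).trans hL.1, fun x hx => hL.2 x (List.mem_cons_of_mem _ hx)⟩
    have e1 := fun a c hc => dg_tm hE (m := m) (k := e.1) hx h0.2.1 h0.2.2 a (c := c) hc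
    have b1 : ∀ a c, c < E.n → dg E.w ((((x >>> (E.w * e.1)) &&& E.M0 m) * e.2.2) <<< (E.w * e.2.1))
        (a * E.n + c) ≤ Eng.ones E.t * Eng.ones E.t := fun a c hc => by
      rw [e1 a c hc]
      refine Nat.mul_le_mul ?_ ?_ <;> split_ifs
      exacts [hx _, Nat.zero_le _, h0.2.2, Nat.zero_le _]
    have e2 : dg E.w (spr (E.M0 m) E.w (e :: L) x) (a * E.n + c) = _ :=
      dg_add (y := spr (E.M0 m) E.w L x) _ fun j _ => by
        have a1 := b1 (j / E.n) _ (Nat.mod_lt j hE.1)
        have a2 := (ih' (j / E.n) _ (Nat.mod_lt j hE.1)).1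
        rw [Nat.div_add_mod'] at a1 a2
        refine lt_of_le_of_lt (add_le_add a1 a2) (lt_of_le_of_lt ?_ hE.2.2.2.1)
        rw [add_comm, ← add_one_mul]
        exact Nat.mul_le_mul_right _ hL.1
    rw [e2]
    refine ⟨?_, fun ha => ?_⟩
    · rw [List.length_cons, add_one_mul, add_comm]
      exact add_le_add (ih' a c hc).1 (b1 a c hc)
    · rw [(ih' a c hc).2 ha, List.map_cons, List.sum_cons, add_left_comm]
      exact congrArg₂ _ rfl (congrArg₂ _ ((e1 a c hc).trans (by rw [if_pos ha])) rfl)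

theorem step_spec {m x : ℕ} {L : Tm} (hL : TOK E L) (hx : Bd E x)
    (h : red E m (spr (E.M0 m) E.w L x) ≠ 0) {a : ℕ} (ha : a < m) :
    vec E.p E.n E.w (red E m (spr (E.M0 m) E.w L x)) a = vec E.p E.n E.w x a ᵥ* smat E.p E.n L := by
  funext c
  refine ((red_spec hE h).2 _).trans ?_
  rw [(dg_spr hE hx L hL a c c.2).2 ha, smat, vecMul_add, vecMul_one, Nat.cast_add]
  refine congrArg (_ + ·) ?_
  have h1 := fun e he => (hL.2 e he).1
  clear hL h
  induction L with
  | nil => simp [vecMul, dotProduct]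
  | cons e L ih =>
    rw [List.map_cons, List.sum_cons, Nat.cast_add, ih fun x hx => h1 x (List.mem_cons_of_mem _ hx)]
    simp only [vecMul, dotProduct, of_apply, List.map_cons, List.sum_cons, mul_add, Finset.sum_add_distrib]
    refine congrArg (· + _) ?_
    rw [Finset.sum_eq_single (⟨e.1, h1 e List.mem_cons_self⟩ : Fin E.n)
      (fun b _ hb => by rw [if_neg fun h => hb (Fin.ext h.1.symm), mul_zero]) (by simp)]
    simp [H17.vec, eq_comm]

end

theorem mapS_zero (E : Eng) (m : ℕ) (tb : ℕ → Tm) (w : List ℕ) : ∀ c, mapS E m tb w c 0 = 0 := by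
  have h1 : ∀ L, spr (E.M0 m) E.w L 0 = 0 := fun L => by
    induction L with
    | nil => rfl
    | cons e L ih =>
      show (((0 >>> _) &&& _) * _) <<< _ + spr _ _ L 0 = 0
      simp [ih]
  have h2 : red E m 0 = 0 := by
    have := stepM_zero E m [0]
    rwa [show stepM E m [0] 0 = red E m (raw (E.M0 m) E.w [0] 0) from rfl, raw_zero] at this
  induction w with
  | nil => intro c; rfl
  | cons x w ih =>
    intro c
    show frcN (mapS E m tb w (c + 1)) (red E m (spr _ _ (tb x) 0)) = 0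
    rw [frcN_eq, h1, h2, ih]

theorem mapS_spec {E : Eng} (hE : E.OK) {m : ℕ} {tb : ℕ → Tm} (w : List ℕ) (h : ∀ x ∈ w, TOK E (tb x)) :
    ∀ c v, Bd E v → mapS E m tb w c v ≠ 0 → ∀ a < m, vec E.p E.n E.w (mapS E m tb w c v) a =
      vec E.p E.n E.w v a ᵥ* (w.map fun x => smat E.p E.n (tb x)).prod := by
  induction w with
  | nil => intro c v _ _ a _; simp; rfl
  | cons x w ih =>
    intro c v hv h0 a ha
    have e : mapS E m tb (x :: w) c v = mapS E m tb w (c + 1) (red E m (spr (E.M0 m) E.w (tb x) v)) :=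
      frcN_eq _ _
    rw [e] at h0 ⊢
    have h1 : red E m (spr (E.M0 m) E.w (tb x) v) ≠ 0 := fun e => h0 (by rw [e, mapS_zero])
    rw [ih (fun y hy => h y (List.mem_cons_of_mem _ hy)) _ _ (red_spec hE h1).1 h0 a ha,
      step_spec hE (h x List.mem_cons_self) hv h1 ha, vecMul_vecMul]
    rfl

/-- `P` times a word in sparse matrices is `g P`, on a part of the identity matrix -/
noncomputable def cjAt (E : Eng) (m : ℕ) (mats : List (List ℕ)) (tb : ℕ → Tm) (P g : ℕ) (w : List ℕ)
    (j : ℕ) : Bool :=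
  eqNZ (frcN (mapS E m tb w 0) (mapW E m mats [P] (idc E m j))) (mapW E m mats [g, P] (idc E m j))

theorem cj_sound {E : Eng} {mats : List (List ℕ)} (h : MatsOK E mats) {m J : ℕ}
    (hJ : E.n ≤ m * J) (hb : ∀ j < J, basisAt E m j = true) {tb : ℕ → Tm} {P g : ℕ} {w : List ℕ}
    (hw : ∀ x ∈ w, TOK E (tb x)) (he : ∀ j < J, cjAt E m mats tb P g w j = true) :
    lmat E mats P * (w.map fun x => smat E.p E.n (tb x)).prod = lmat E mats g * lmat E mats P := by
  ext i c
  have hm : 0 < m := Nat.pos_of_ne_zero fun e => by have := i.2; rw [e] at hJ; omega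
  have hj : i / m < J := by
    rw [Nat.div_lt_iff_lt_mul hm, mul_comm]; exact i.2.trans_le hJ
  obtain ⟨a1, a2, a3⟩ := eqNZ_spec (he _ hj)
  rw [frcN_eq] at a1 a2
  have b : Bd E (idc E m (i / m)) := bd_and h.1 m _
  have b0 := mapC_spec h (m := m) [P] 0 _ b fun e => a2 (by rw [mapW, e, mapS_zero])
  have b1 := mapS_spec h.1 w hw 0 _ b0.1 a2 _ (Nat.mod_lt i hm)
  have b2 := mapW_spec h _ b a3 (Nat.mod_lt i hm)
  rw [b0.2 _ (Nat.mod_lt i hm), vecMul_vecMul] at b1
  rw [← a1, mapW, b1, vec_idc h.1 (hb _ hj) i hm rfl, single_one_vecMul, single_one_vecMul] at b2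
  simpa using congrFun b2 c

/-- terms stored in one number -/
noncomputable def unpk (k : ℕ) : ℕ → Tm :=
  Nat.rec (motive := fun _ => ℕ → Tm) (fun _ => []) (fun _ ih T => Bool.rec (motive := fun _ => Tm)
    ((Nat.land T 255, Nat.land (Nat.shiftRight T 8) 255, Nat.land (Nat.shiftRight T 16) 15) ::
      ih (Nat.shiftRight T 20)) [] (Nat.beq T 0)) k

/-- fast access to a list -/
noncomputable def gL {α : Type} (l : List α) (d : α) (x : ℕ) : α :=
  List.rec (motive := fun _ => ℕ → α) (fun _ => d)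
    (fun a _ ih x => Nat.rec (motive := fun _ => α) a (fun y _ => ih y) x) l x

theorem gL_eq {α : Type} (A : Array α) (d : α) (x : ℕ) : gL A.toList d x = A.getD x d := by
  rw [Array.getD_eq_getD_getElem?, ← Array.getElem?_toList]
  induction A.toList generalizing x with
  | nil => rfl
  | cons a l ih => cases x with
    | zero => rfl
    | succ x => exact ih x

variable (D : ChevalleyDatum)

/-- the columns of `x_r(t) - 1` -/
noncomputable def cols (r : ℕ) : List (ℕ × List (ℕ × ℕ × ℤ)) :=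
  ((List.range D.rank).map fun c => (c, [(D.rank + r, 1, - gL (gL D.cartanSR.toList #[] c).toList 0 r)])) ++
    (D.rank + gL D.negIdx.toList 0 r, (D.rank + r, 2, -1) ::
      (List.range D.rank).map fun i => (i, 1, gL (gL D.coroot.toList #[] r).toList 0 i)) ::
    (gL D.chain.toList #[] r).toList.map fun e =>
      (D.rank + e.1, e.2.toList.zipIdx.map fun q => (D.rank + q.1.1, q.2 + 1, q.1.2))

def Side (r : ℕ) : Prop := D.neg r ≠ r ∧ ∀ e ∈ (D.chain.getD r #[]).toList, e.1 ≠ r ∧ e.1 ≠ D.neg r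

noncomputable def sideB (r : ℕ) : Bool := band (!Nat.beq (gL D.negIdx.toList 0 r) r)
  (allA (gL D.chain.toList #[] r).toList fun e => band (!Nat.beq e.1 r) (!Nat.beq e.1 (gL D.negIdx.toList 0 r)))

theorem side_of {r : ℕ} (h : sideB D r = true) : Side D r := by
  rw [sideB, band_iff, gL_eq, gL_eq] at h
  refine ⟨fun e => by simpa [show D.negIdx.getD r 0 = r from e] using h.1, fun e he => ?_⟩
  have := band_iff.1 (allA_spec h.2 e he)
  exact ⟨fun a => by simpa [a] using this.1, fun a => by simpa [a, ChevalleyDatum.neg] using this.2⟩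

noncomputable def tokB (E : Eng) (L : Tm) : Bool := band (Nat.blt L.length E.n) (allA L fun e =>
  band (Nat.blt e.1 E.n) (band (Nat.blt e.2.1 E.n) (Nat.ble e.2.2 (Eng.ones E.t))))

theorem tok_of {E : Eng} {L : Tm} (h : tokB E L = true) : TOK E L := by
  rw [tokB, band_iff] at h
  exact ⟨by simpa using h.1, fun e he => by simpa [band_iff] using allA_spec h.2 e he⟩

theorem filter_range {α : Type*} (f : ℕ → α) (n c : ℕ) :
    ((List.range n).map fun c => (c, f c)).filter (fun e => e.1 = c) = if c < n then [(c, f c)] else [] := by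
  induction n with
  | zero => rfl
  | succ n ih =>
    rw [List.range_succ, List.map_append, List.filter_append, ih]
    rcases lt_trichotomy c n with h | rfl | h
    · simp [h, h.ne', Nat.lt_succ_of_lt h]
    · simp
    · simp [h.ne, h.not_gt, Nat.not_lt.2 (Nat.succ_le_of_lt h)]

variable {D}

theorem xcol_eq {r c : ℕ} (h : Side D r) (hc : c < D.rank + D.nroots) :
    H40.xcol D r c = (c, 0, 1) :: ((cols D r).filter fun e => e.1 = c).flatMap (·.2) := by
  simp only [cols, gL_eq]
  rw [List.filter_append, filter_range, List.filter_cons, List.filter_map,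
    show D.negIdx.getD r 0 = D.neg r from rfl]
  rcases Nat.lt_or_ge c D.rank with h1 | h1
  · rw [H40.xcol_inl D r h1, if_pos h1, if_neg (by simp; omega),
      List.filter_eq_nil_iff.2 fun e _ => by simp; omega]
    rfl
  · obtain ⟨s, rfl⟩ := Nat.exists_eq_add_of_le h1
    rw [H40.xcol_inr D r (by omega), if_neg h1.not_gt]
    split_ifs with h2 h3 h4 h5 h6
    · exact absurd (by simpa [h2] using h3) h.1
    · rw [List.filter_eq_nil_iff.2 fun e he => by simpa [h2] using (h.2 e he).1]; rfl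
    · rw [List.filter_eq_nil_iff.2 fun e he => by simpa [h4] using (h.2 e he).2]; simp
    · simp [h4] at h5
    · exact absurd (by simpa [eq_comm] using h6) h4
    · simp [List.flatMap_map, Function.comp_def]

/-- a natural number congruent to an integer -/
noncomputable def cf (p : ℕ) (z : ℤ) : ℕ :=
  Int.rec (motive := fun _ => ℕ) (fun n => n) (fun n => Nat.mul (Nat.pred p) (Nat.succ n)) z

theorem cf_cast {p : ℕ} (hp : p ≠ 0) (z : ℤ) : (cf p z : ZMod p) = z := by
  cases z with
  | ofNat n => exact (Int.cast_natCast n).symm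
  | negSucc n =>
    show (((p - 1) * (n + 1) : ℕ) : ZMod p) = _
    rw [Nat.cast_mul, Nat.cast_pred (Nat.pos_of_ne_zero hp)]
    simp

/-- the terms of `x_r(t) - 1` modulo `p` -/
noncomputable def tl (p t : ℕ) (C : List (ℕ × List (ℕ × ℕ × ℤ))) : Tm :=
  List.rec (motive := fun _ => Tm) [] (fun e _ ih => List.rec (motive := fun _ => Tm) ih
    (fun q _ ih => Bool.rec (motive := fun _ => Tm)
      ((q.1, e.1, Nat.mod (Nat.mul (cf p q.2.2) (Nat.pow t q.2.1)) p) :: ih) ih
      (Nat.beq (Nat.mod (Nat.mul (cf p q.2.2) (Nat.pow t q.2.1)) p) 0)) e.2) C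

theorem tl_sum {p : ℕ} (hp : p ≠ 0) (t k c : ℕ) (C : List (ℕ × List (ℕ × ℕ × ℤ))) :
    ((tl p t C).map fun e => if e.1 = k ∧ e.2.1 = c then (e.2.2 : ZMod p) else 0).sum =
      H40.ev (t : ZMod p) k ((C.filter fun e => e.1 = c).flatMap (·.2)) := by
  induction C with
  | nil => rfl
  | cons e C ih =>
    obtain ⟨c0, l⟩ := e
    induction l with
    | nil =>
      refine ih.trans ?_
      by_cases h : c0 = c <;> simp [h]
    | cons q l ih2 =>
      have h2 : ((cf p q.2.2 * t ^ q.2.1 % p : ℕ) : ZMod p) = q.2.2 * (t : ZMod p) ^ q.2.1 := by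
        simp [cf_cast hp]
      have h3 : tl p t ((c0, q :: l) :: C) = Bool.rec (motive := fun _ => Tm)
        ((q.1, c0, cf p q.2.2 * t ^ q.2.1 % p) :: tl p t ((c0, l) :: C)) (tl p t ((c0, l) :: C))
        (Nat.beq (cf p q.2.2 * t ^ q.2.1 % p) 0) := rfl
      rw [h3]
      generalize cf p q.2.2 * t ^ q.2.1 % p = z at h2
      cases z with
      | zero => refine ih2.trans ?_; by_cases h : c0 = c <;> simp [h, H40.ev_cons, ← h2]
      | succ z =>
        refine (congrArg (_ + ·) ih2).trans ?_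
        by_cases h : c0 = c <;> simp [h, H40.ev_cons, ← h2]

noncomputable def eqT (a : Tm) : Tm → Bool :=
  List.rec (motive := fun _ => Tm → Bool) (fun b => Nat.beq b.length 0) (fun e _ ih b =>
    List.rec (motive := fun _ => Bool) false (fun f b _ => band (Nat.beq e.1 f.1)
      (band (Nat.beq e.2.1 f.2.1) (band (Nat.beq e.2.2 f.2.2) (ih b)))) b) a

theorem eq_of_eqT {a : Tm} : ∀ {b}, eqT a b = true → a = b := by
  induction a with
  | nil => rintro (_ | _) h; exacts [rfl, absurd h Bool.false_ne_true]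
  | cons e a ih =>
    rintro (_ | ⟨f, b⟩) h
    · exact absurd h Bool.false_ne_true
    · have h' : band (Nat.beq e.1 f.1) (band (Nat.beq e.2.1 f.2.1) (band (Nat.beq e.2.2 f.2.2) (eqT a b)))
        = true := h
      simp only [band_iff, Nat.beq_eq] at h'
      rw [ih h'.2.2.2, Prod.ext h'.1 (Prod.ext h'.2.1 h'.2.2.1)]

theorem smat_eq {p : ℕ} [Fact p.Prime] (r : Fin D.nroots) (h : Side D r) (t : ℕ) (a b : D.Idx) :
    smat p (D.rank + D.nroots) (tl p t (cols D r)) (finSumFinEquiv a) (finSumFinEquiv b) =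
      D.xMat (ZMod p) r t a b := by
  have e : ∀ a : D.Idx, (finSumFinEquiv a).1 = H40.enc D a := by rintro (a | a) <;> rfl
  rw [H40.xMat_eq_ev, xcol_eq h (H40.enc_lt D b), H40.ev_cons, smat, Matrix.add_apply, of_apply,
    tl_sum (Fact.out : p.Prime).ne_zero, e, e, Matrix.one_apply]
  simp [show a = b ↔ H40.enc D b = H40.enc D a from ⟨fun h => h ▸ rfl, fun h => (H40.enc_inj D h).symm⟩]

/-- matrices on the coordinates of the Lie algebra -/
noncomputable def reI (D : ChevalleyDatum) (F : Type*) [Field F] :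
    GL (Fin (D.rank + D.nroots)) F ≃* GL D.Idx F :=
  Units.mapEquiv (reindexAlgEquiv F F finSumFinEquiv.symm).toMulEquiv

theorem mem_group {p : ℕ} [Fact p.Prime] {tb : ℕ → Tm} (w : List ℕ)
    (h : ∀ x ∈ w, ∃ (r : Fin D.nroots) (t : ℕ), Side D r ∧ tb x = tl p t (cols D r)) :
    ∀ g : GL (Fin (D.rank + D.nroots)) (ZMod p),
      g.1 = (w.map fun x => smat p _ (tb x)).prod → reI D _ g ∈ D.group (ZMod p) := by
  induction w with
  | nil => intro g e; rw [show g = 1 from Units.ext e, map_one]; exact one_mem _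
  | cons x w ih =>
    intro g e
    rw [List.map_cons, List.prod_cons] at e
    have h1 := (isUnit_iff_isUnit_det _).1 g.isUnit
    rw [e, det_mul, IsUnit.mul_iff, ← isUnit_iff_isUnit_det, ← isUnit_iff_isUnit_det] at h1
    obtain ⟨r, t, h2, h3⟩ := h x List.mem_cons_self
    rw [show g = h1.1.unit * h1.2.unit from Units.ext e, map_mul]
    refine mul_mem (Subgroup.subset_closure ⟨r, t, ?_⟩)
      (ih (fun y hy => h y (List.mem_cons_of_mem _ hy)) _ rfl)
    ext a b
    rw [← smat_eq r h2, ← h3]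
    rfl

end Cfsg.Agent.H58.Sp
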