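import Cfsg.Agent.H58.Rank3M
import Cfsg.Agent.H58.Mod.J25M
import Cfsg.Agent.H58.Cert.SuzJN
import Cfsg.Agent.H58.Cert.Suz3
import Cfsg.Agent.H58.Cert.Suz4
import Cfsg.Agent.H58.Cert.Suz5

set_option autoImplicit false
set_option Elab.async false
set_option maxRecDepth 100000
set_option linter.constructorNameAsVariable false
set_option exponentiation.threshold 400000

namespace Cfsg.Agent.H58.SuzJ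

open Cfsg Cfsg.Agent.H58 J25M

theorem g3 : Suz3.C.Good rels iv := Suz3.good.rerel (by decide +kernel)
theorem g4 : Suz4.C.Good rels iv := Suz4.good.rerel (by decide +kernel)
theorem g5 : Suz5.C.Good rels iv := Suz5.good.rerel (by decide +kernel)

section
variable {G : Type*} [Group G] {e : ℕ → G} (Q : RuleOK e rels iv)
include Q

theorem a_mem {K : Subgroup G} (h : ∀ x ∈ ([3, 4] : List ℕ), e x ∈ K) : e 1 ∈ K :=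
  Q.mem_of_rule 43 0 (w := [4, 3, 4, 3, 4, 3, 4, 3]) (by decide +kernel)
    fun y hy => h y (by revert y; decide)

theorem bound : Finite (clL e [2, 3, 4, 5]) ∧ Nat.card (clL e [2, 3, 4, 5]) ≤ 604800 :=
  card_step (card_step (card_step card_le_bot (Cert.relIndex_le g5 Suz5.closed Q ⊥ (forall_nil _)))
    (Cert.relIndex_le g4 Suz4.closed Q _ (mem_clL e [3, 4] _ (by decide))))
    (Cert.relIndex_le g3 Suz3.closed Q _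
      (forall_cons (a_mem Q (mem_clL e _ _ (by decide))) (mem_clL e [2, 3, 4] _ (by decide))))

end

/-- the Hall-Janko group acting on its Sylow 5-subgroups -/
noncomputable abbrev Γ : Subgroup (Equiv.Perm ℕ) := clL (elN nets) [2, 3, 4, 5]

theorem hall (x : ℕ) : elN nets x ∈ Γ := by
  rcases Nat.lt_or_ge x 8 with h | h
  · have h2 := mem_clL (elN nets) [2, 3, 4, 5] [2, 3, 4, 5] (by decide)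
    interval_cases x
    exacts [Γ.one_mem, a_mem ruleN (mem_clL _ _ _ (by decide)), h2 _ (by decide), h2 _ (by decide),
      h2 _ (by decide), h2 _ (by decide), Γ.one_mem, Γ.one_mem]
  · rw [elN_of_le h]; exact Γ.one_mem

noncomputable def M : Model Γ := permModel netsOK hall

theorem R : RuleOK M.el rels iv := RuleOK.of_inj Γ.subtype Γ.subtype_injective ruleN

theorem top : clL M.el [2, 3, 4, 5] = ⊤ := permModel_top netsOK hall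

theorem hgen : Subgroup.closure (Set.range M.el) = ⊤ := closure_range_of top

instance finite : Finite Γ := (bound ruleN).1

def pw : List (List ℕ) := [[1, 2], [3, 2, 1, 4, 3, 2, 1, 2, 3, 4, 3, 2, 4, 3, 5]]

def nw : List (List ℕ) := [[1], [2], [5], [3, 4, 3, 4, 5, 4, 3, 2, 1, 2, 4, 3, 2, 4, 3, 4, 5, 4, 3, 4]]

theorem o0 : orbErr nets [[1], [2], [3], [4], [5]] [2, 3, 1, 2, 4, 1, 3, 0, 4, 2, 1, 3, 0, 2, 4, 1, 3, 2, 4, 0, 1, 3, 2, 0, 1, 3] 0 11 2016 = 0 := by decide +kernel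
theorem o1 : orbErr nets nw [0, 1, 2, 0, 1, 0, 3, 0, 1, 0, 1, 0, 3] 16 11 300 = 0 := by decide +kernel
theorem f1 : fixErr nets nw [0] = 0 := by decide +kernel
theorem f2 : fixErr nets pw [0] = 0 := by decide +kernel
theorem on2 : orbErr nets nw [2, 3, 0, 1, 0, 3] 2 11 15 = 0 := by decide +kernel
theorem op2 : orbEqErr nets pw [1, 1, 1, 1] 2 11 5 = 0 := by decide +kernel
theorem on206 : orbErr nets nw [0, 1, 0, 1, 0, 3] 206 11 15 = 0 := by decide +kernel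
theorem op206 : orbEqErr nets pw [0, 0, 0, 0] 206 11 5 = 0 := by decide +kernel
theorem on305 : orbErr nets nw [0, 1, 0, 1, 0, 3] 305 11 15 = 0 := by decide +kernel
theorem op305 : orbEqErr nets pw [0, 0, 0, 0] 305 11 5 = 0 := by decide +kernel
def qp : List (List ℕ × List ℕ) := [([1, 1, 2], [1, 2, 1, 2, 1, 2, 1, 2, 1]),
  ([1, 3, 2, 1, 4, 3, 2, 1, 2, 3, 4, 3, 2, 4, 3, 5], [1, 2, 1, 2, 1, 2, 1, 2, 3, 2, 1, 4, 3, 2, 1, 2, 3, 4, 3, 2, 4, 3, 5, 1]),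
  ([2, 1, 2], [1, 2, 1, 2, 1, 2, 1, 2, 2]),
  ([2, 3, 2, 1, 4, 3, 2, 1, 2, 3, 4, 3, 2, 4, 3, 5], [1, 2, 1, 2, 1, 2, 1, 2, 3, 2, 1, 4, 3, 2, 1, 2, 3, 4, 3, 2, 4, 3, 5, 2]),
  ([5, 1, 2], [1, 2, 5]),
  ([5, 3, 2, 1, 4, 3, 2, 1, 2, 3, 4, 3, 2, 4, 3, 5], [1, 2, 3, 2, 1, 4, 3, 2, 1, 2, 3, 4, 3, 2, 4, 3, 5, 3, 2, 1, 4, 3, 2, 1, 2, 3, 4, 3, 2, 4, 3, 5, 3, 2, 1, 4, 3, 2, 1, 2, 3, 4, 3, 2, 4, 3, 5, 3, 2, 1, 4, 3, 2, 1, 2, 3, 4, 3, 2, 4, 3, 5, 5]),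
  ([3, 4, 3, 4, 5, 4, 3, 2, 1, 2, 4, 3, 2, 4, 3, 4, 5, 4, 3, 4, 1, 2], [1, 2, 3, 2, 1, 4, 3, 2, 1, 2, 3, 4, 3, 2, 4, 3, 5, 3, 2, 1, 4, 3, 2, 1, 2, 3, 4, 3, 2, 4, 3, 5, 3, 2, 1, 4, 3, 2, 1, 2, 3, 4, 3, 2, 4, 3, 5, 3, 2, 1, 4, 3, 2, 1, 2, 3, 4, 3, 2, 4, 3, 5, 3, 4, 3, 4, 5, 4, 3, 2, 1, 2, 4, 3, 2, 4, 3, 4, 5, 4, 3, 4]),
  ([3, 4, 3, 4, 5, 4, 3, 2, 1, 2, 4, 3, 2, 4, 3, 4, 5, 4, 3, 4, 3, 2, 1, 4, 3, 2, 1, 2, 3, 4, 3, 2, 4, 3, 5], [3, 2, 1, 4, 3, 2, 1, 2, 3, 4, 3, 2, 4, 3, 5, 3, 2, 1, 4, 3, 2, 1, 2, 3, 4, 3, 2, 4, 3, 5, 3, 2, 1, 4, 3, 2, 1, 2, 3, 4, 3, 2, 4, 3, 5, 3, 2, 1, 4, 3, 2, 1, 2, 3, 4, 3, 2, 4, 3, 5, 3, 4, 3, 4, 5, 4, 3, 2, 1, 2, 4, 3, 2, 4, 3, 4, 5, 4, 3, 4]),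
  ([1, 2, 3, 2, 1, 4, 3, 2, 1, 2, 3, 4, 3, 2, 4, 3, 5], [3, 2, 1, 4, 3, 2, 1, 2, 3, 4, 3, 2, 4, 3, 5, 1, 2]),
  ([3, 2, 1, 4, 3, 2, 1, 2, 3, 4, 3, 2, 4, 3, 5, 1, 2], [1, 2, 3, 2, 1, 4, 3, 2, 1, 2, 3, 4, 3, 2, 4, 3, 5]),
  ([1, 2, 1, 2, 1, 2, 1, 2, 1, 2], []),
  ([3, 2, 1, 4, 3, 2, 1, 2, 3, 4, 3, 2, 4, 3, 5, 3, 2, 1, 4, 3, 2, 1, 2, 3, 4, 3, 2, 4, 3, 5, 3, 2, 1, 4, 3, 2, 1, 2, 3, 4, 3, 2, 4, 3, 5, 3, 2, 1, 4, 3, 2, 1, 2, 3, 4, 3, 2, 4, 3, 5, 3, 2, 1, 4, 3, 2, 1, 2, 3, 4, 3, 2, 4, 3, 5], [])]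
theorem q0 : eqsAt nets 2016 11 qp 0 = 0 := by decide +kernel
theorem q1 : eqsAt nets 2016 11 qp 1 = 0 := by decide +kernel
theorem q2 : eqsAt nets 2016 11 qp 2 = 0 := by decide +kernel
theorem q3 : eqsAt nets 2016 11 qp 3 = 0 := by decide +kernel
theorem q4 : eqsAt nets 2016 11 qp 4 = 0 := by decide +kernel
theorem q5 : eqsAt nets 2016 11 qp 5 = 0 := by decide +kernel
theorem q6 : eqsAt nets 2016 11 qp 6 = 0 := by decide +kernel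
theorem q7 : eqsAt nets 2016 11 qp 7 = 0 := by decide +kernel
theorem q8 : eqsAt nets 2016 11 qp 8 = 0 := by decide +kernel
theorem q9 : eqsAt nets 2016 11 qp 9 = 0 := by decide +kernel
theorem q10 : eqsAt nets 2016 11 qp 10 = 0 := by decide +kernel
theorem qa : ∀ t < 11, eqsAt nets 2016 11 qp t = 0 := (blocks_cons (blocks_cons (blocks_cons (blocks_cons (blocks_cons (blocks_cons (blocks_cons (blocks_cons (blocks_cons (blocks_cons (blocks_cons (blocks_nil _) q0) q1) q2) q3) q4) q5) q6) q7) q8) q9) q10)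
def part : List (ℕ × ℕ × List ℕ) := [(0, 1, []),
  (1, 25, [0, 0, 0, 0, 1, 1, 1, 1]),
  (2, 5, [1, 1, 1, 1]),
  (4, 25, [0, 0, 0, 0, 1, 1, 1, 1]),
  (5, 25, [0, 0, 0, 0, 1, 1, 1, 1]),
  (9, 25, [0, 0, 0, 0, 1, 1, 1, 1]),
  (10, 25, [0, 0, 0, 0, 1, 1, 1, 1]),
  (13, 25, [0, 0, 0, 0, 1, 1, 1, 1]),
  (16, 25, [0, 0, 0, 0, 1, 1, 1, 1]),
  (19, 25, [0, 0, 0, 0, 1, 1, 1, 1]),
  (20, 25, [0, 0, 0, 0, 1, 1, 1, 1]),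
  (43, 25, [0, 0, 0, 0, 1, 1, 1, 1]),
  (28, 25, [0, 0, 0, 0, 1, 1, 1, 1]),
  (32, 25, [0, 0, 0, 0, 1, 1, 1, 1]),
  (37, 25, [0, 0, 0, 0, 1, 1, 1, 1]),
  (41, 25, [0, 0, 0, 0, 1, 1, 1, 1]),
  (45, 25, [0, 0, 0, 0, 1, 1, 1, 1]),
  (47, 25, [0, 0, 0, 0, 1, 1, 1, 1]),
  (56, 25, [0, 0, 0, 0, 1, 1, 1, 1]),
  (63, 25, [0, 0, 0, 0, 1, 1, 1, 1]),
  (71, 25, [0, 0, 0, 0, 1, 1, 1, 1]),
  (74, 25, [0, 0, 0, 0, 1, 1, 1, 1]),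
  (75, 25, [0, 0, 0, 0, 1, 1, 1, 1]),
  (94, 25, [0, 0, 0, 0, 1, 1, 1, 1]),
  (80, 25, [0, 0, 0, 0, 1, 1, 1, 1]),
  (91, 25, [0, 0, 0, 0, 1, 1, 1, 1]),
  (92, 25, [0, 0, 0, 0, 1, 1, 1, 1]),
  (100, 25, [0, 0, 0, 0, 1, 1, 1, 1]),
  (103, 25, [0, 0, 0, 0, 1, 1, 1, 1]),
  (108, 25, [0, 0, 0, 0, 1, 1, 1, 1]),
  (115, 25, [0, 0, 0, 0, 1, 1, 1, 1]),
  (117, 25, [0, 0, 0, 0, 1, 1, 1, 1]),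
  (120, 25, [0, 0, 0, 0, 1, 1, 1, 1]),
  (122, 25, [0, 0, 0, 0, 1, 1, 1, 1]),
  (125, 25, [0, 0, 0, 0, 1, 1, 1, 1]),
  (131, 25, [0, 0, 0, 0, 1, 1, 1, 1]),
  (135, 25, [0, 0, 0, 0, 1, 1, 1, 1]),
  (142, 25, [0, 0, 0, 0, 1, 1, 1, 1]),
  (143, 25, [0, 0, 0, 0, 1, 1, 1, 1]),
  (150, 25, [0, 0, 0, 0, 1, 1, 1, 1]),
  (157, 25, [0, 0, 0, 0, 1, 1, 1, 1]),
  (160, 25, [0, 0, 0, 0, 1, 1, 1, 1]),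
  (182, 25, [0, 0, 0, 0, 1, 1, 1, 1]),
  (183, 25, [0, 0, 0, 0, 1, 1, 1, 1]),
  (184, 25, [0, 0, 0, 0, 1, 1, 1, 1]),
  (186, 25, [0, 0, 0, 0, 1, 1, 1, 1]),
  (189, 25, [0, 0, 0, 0, 1, 1, 1, 1]),
  (197, 25, [0, 0, 0, 0, 1, 1, 1, 1]),
  (204, 25, [0, 0, 0, 0, 1, 1, 1, 1]),
  (206, 5, [0, 0, 0, 0]),
  (207, 25, [0, 0, 0, 0, 1, 1, 1, 1]),
  (211, 25, [0, 0, 0, 0, 1, 1, 1, 1]),
  (214, 25, [0, 0, 0, 0, 1, 1, 1, 1]),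
  (216, 25, [0, 0, 0, 0, 1, 1, 1, 1]),
  (218, 25, [0, 0, 0, 0, 1, 1, 1, 1]),
  (231, 25, [0, 0, 0, 0, 1, 1, 1, 1]),
  (267, 25, [0, 0, 0, 0, 1, 1, 1, 1]),
  (244, 25, [0, 0, 0, 0, 1, 1, 1, 1]),
  (268, 25, [0, 0, 0, 0, 1, 1, 1, 1]),
  (398, 25, [0, 0, 0, 0, 1, 1, 1, 1]),
  (273, 25, [0, 0, 0, 0, 1, 1, 1, 1]),
  (280, 25, [0, 0, 0, 0, 1, 1, 1, 1]),
  (316, 25, [0, 0, 0, 0, 1, 1, 1, 1]),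
  (364, 25, [0, 0, 0, 0, 1, 1, 1, 1]),
  (305, 5, [0, 0, 0, 0]),
  (623, 25, [0, 0, 0, 0, 1, 1, 1, 1]),
  (309, 25, [0, 0, 0, 0, 1, 1, 1, 1]),
  (521, 25, [0, 0, 0, 0, 1, 1, 1, 1]),
  (320, 25, [0, 0, 0, 0, 1, 1, 1, 1]),
  (368, 25, [0, 0, 0, 0, 1, 1, 1, 1]),
  (330, 25, [0, 0, 0, 0, 1, 1, 1, 1]),
  (356, 25, [0, 0, 0, 0, 1, 1, 1, 1]),
  (335, 25, [0, 0, 0, 0, 1, 1, 1, 1]),
  (392, 25, [0, 0, 0, 0, 1, 1, 1, 1]),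
  (404, 25, [0, 0, 0, 0, 1, 1, 1, 1]),
  (539, 25, [0, 0, 0, 0, 1, 1, 1, 1]),
  (440, 25, [0, 0, 0, 0, 1, 1, 1, 1]),
  (485, 25, [0, 0, 0, 0, 1, 1, 1, 1]),
  (469, 25, [0, 0, 0, 0, 1, 1, 1, 1]),
  (471, 25, [0, 0, 0, 0, 1, 1, 1, 1]),
  (575, 25, [0, 0, 0, 0, 1, 1, 1, 1]),
  (585, 25, [0, 0, 0, 0, 1, 1, 1, 1]),
  (761, 25, [0, 0, 0, 0, 1, 1, 1, 1]),
  (1015, 25, [0, 0, 0, 0, 1, 1, 1, 1])]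
theorem part_ok : partErr nets pw 11 (Nat.pred (Nat.pow 2 2016)) part 0 = 0 := by decide +kernel
def far0 : List (List (ℕ × List ℕ) × List ℕ) := [([(1, [3])], [2, 0, 2, 0, 1, 2, 0, 2, 0, 1, 2, 0, 0, 3, 0, 0, 2, 1, 2, 0, 0, 0, 1, 2, 0, 0, 0, 0, 2, 1]),
  ([(10, [5, 4, 3])], [2, 0, 0, 0, 0, 1, 2, 0, 0, 0, 0, 1, 3, 0, 0, 0, 0, 2, 0, 0, 1, 2, 0, 0, 0, 0, 1]),
  ([(20, [5, 3, 4, 3])], [2, 0, 0, 0, 0, 2, 0, 0, 0, 2, 0, 0, 1, 0, 2, 0, 0, 0, 0, 1, 2, 0, 0, 0, 0, 1, 2, 0, 0]),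
  ([(37, [4, 5, 3, 4, 3])], [2, 0, 0, 0, 0, 2, 0, 0, 0, 1, 2, 0, 0, 0, 0, 1, 2, 0, 0, 0, 0, 2, 0, 0, 0, 1, 2, 0, 2]),
  ([(56, [4, 5, 3, 4, 2, 3])], [2, 0, 0, 0, 0, 2, 0, 0, 0, 0, 1, 2, 0, 0, 0, 0, 1, 2, 0, 0, 0, 0, 2, 0, 0, 0, 0, 1]),
  ([(75, [3, 4, 5, 4, 3, 4])], [2, 0, 0, 0, 0, 2, 0, 0, 0, 1, 2, 0, 0, 0, 0, 1, 2, 0, 0, 0, 0, 1, 2, 0, 0, 0, 0, 2]),
  ([(92, [3, 4, 5, 3, 4, 2, 3])], [2, 0, 0, 0, 0, 1, 2, 0, 0, 0, 0, 1, 2, 0, 0, 0, 0, 1, 2, 0, 0, 0, 0, 1, 1]),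
  ([(115, [3, 4, 5, 1, 2, 3, 4])], [2, 0, 0, 0, 0, 1, 2, 0, 0, 0, 0, 1, 2, 0, 0, 0, 0, 1, 2, 0, 0, 0, 0, 1, 1]),
  ([(125, [4, 3, 4, 1, 2, 1, 2, 3])], [2, 0, 0, 0, 0, 1, 2, 0, 0, 0, 0, 1, 2, 0, 0, 0, 1, 0, 2, 0, 0, 0, 0, 1, 2, 0, 0]),
  ([(143, [3, 4, 5, 4, 3, 4, 2, 3])], [2, 0, 0, 0, 0, 1, 2, 0, 0, 0, 0, 1, 2, 0, 0, 0, 0, 1, 2, 0, 0, 0, 0, 1, 2]),
  ([(182, [4, 3, 4, 5, 1, 2, 3, 4])], [2, 0, 0, 0, 0, 1, 2, 0, 0, 0, 0, 1, 2, 0, 0, 0, 0, 1, 2, 0, 0, 0, 0, 1, 1]),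
  ([(189, [5, 4, 3, 4, 5, 2, 3, 4])], [2, 0, 0, 0, 0, 1, 2, 0, 0, 0, 0, 1, 2, 0, 0, 0, 0, 1, 2, 0, 0, 0, 0, 1, 1]),
  ([(211, [3, 4, 5, 1, 2, 3, 4, 2, 3])], [2, 0, 0, 0, 0, 1, 2, 0, 0, 0, 0, 1, 2, 0, 0, 0, 0, 1, 2, 0, 0, 0, 0, 1]),
  ([(231, [3, 4, 5, 2, 1, 2, 3, 4, 3])], [2, 0, 0, 0, 0, 1, 2, 0, 0, 0, 0, 1, 2, 0, 0, 0, 0, 1, 2, 0, 0, 0, 0, 1, 2]),
  ([(398, [4, 3, 4, 5, 4, 3, 4, 2, 3, 4])], [2, 0, 0, 0, 0, 1, 2, 0, 0, 0, 0, 1, 2, 0, 0, 0, 0, 1, 2, 0, 0, 0, 0, 1, 1]),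
  ([(364, [5, 3, 4, 3, 4, 5, 2, 3, 4, 3])], [2, 0, 0, 0, 0, 1, 2, 0, 0, 0, 0, 1, 2, 0, 0, 0, 0, 1, 2, 0, 0, 0, 0, 1, 2]),
  ([(320, [5, 4, 3, 4, 5, 2, 3, 4, 2, 3])], [2, 0, 0, 0, 0, 1, 2, 0, 0, 0, 0, 1, 2, 0, 0, 0, 0, 1, 2, 0, 0, 0, 0, 1, 2]),
  ([(335, [3, 4, 5, 4, 2, 1, 2, 3, 4, 3])], [2, 0, 0, 0, 0, 1, 2, 0, 0, 0, 0, 1, 2, 0, 0, 0, 0, 1, 2, 0, 0, 0, 0, 1]),
  ([(440, [4, 3, 4, 5, 1, 2, 3, 4, 1, 2, 3])], [2, 0, 0, 0, 0, 1, 2, 0, 0, 0, 0, 1, 1, 2, 0, 0, 0, 0, 1, 1, 2, 0, 0, 0, 0, 1]),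
  ([(575, [3, 4, 1, 2, 3, 4, 5, 4, 2, 3, 4])], [2, 0, 0, 0, 0, 1, 2, 0, 0, 0, 0, 1, 2, 0, 0, 0, 0, 1, 2, 0, 0, 0, 0, 1])]
theorem far0_ok : farErr nets iv pw (Nat.pred (Nat.pow 2 2016)) far0 = 0 := by decide +kernel
def far1 : List (List (ℕ × List ℕ) × List ℕ) := [([(4, [4, 3])], [2, 0, 0, 0, 0, 1, 2, 0, 0, 0, 0, 1, 2, 0, 0, 3, 0, 0, 1, 2, 0, 0, 0, 0, 1, 2, 0, 0, 0, 0]),
  ([(13, [5, 3, 4])], [2, 0, 0, 0, 0, 1, 2, 0, 0, 0, 0, 1, 3, 0, 0, 0, 0, 2, 0, 0, 1, 2, 0, 0, 0, 0, 1, 2, 0]),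
  ([(43, [4, 5, 2, 3, 4])], [2, 0, 0, 0, 0, 1, 3, 0, 0, 0, 0, 1, 2, 0, 0, 0, 1, 0, 2, 0, 0, 0, 1, 0, 2, 0, 0, 1]),
  ([(41, [3, 4, 2, 3, 4])], [2, 0, 0, 0, 0, 2, 0, 0, 0, 0, 1, 2, 0, 0, 0, 0, 1, 2, 0, 0, 0, 0, 1, 2, 0, 0, 0, 0]),
  ([(63, [4, 5, 4, 3, 4, 3])], [2, 0, 0, 0, 0, 2, 0, 0, 0, 1, 2, 0, 0, 0, 0, 1, 2, 0, 0, 0, 0, 1, 2, 0, 0, 0, 0, 2, 0]),
  ([(94, [3, 2, 1, 2, 3, 4, 3])], [2, 0, 0, 0, 0, 1, 2, 0, 0, 0, 0, 1, 2, 0, 0, 0, 1, 0, 2, 0, 0, 0, 0, 1, 2, 0, 0]),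
  ([(100, [4, 3, 4, 2, 3, 4, 3])], [2, 0, 0, 0, 0, 1, 2, 0, 0, 0, 0, 1, 2, 0, 0, 0, 0, 1, 2, 0, 0, 0, 0, 1, 1]),
  ([(117, [4, 5, 3, 4, 2, 3, 4])], [2, 0, 0, 0, 0, 1, 2, 0, 0, 0, 0, 1, 2, 0, 0, 0, 0, 1, 2, 0, 0, 0, 0, 2, 0, 0, 0, 0, 1]),
  ([(131, [4, 5, 3, 4, 2, 1, 2, 3])], [2, 0, 0, 0, 0, 1, 2, 0, 0, 0, 0, 1, 2, 0, 0, 0, 0, 1, 2, 0, 0, 0, 0, 1, 2]),
  ([(150, [3, 4, 2, 1, 2, 3, 4, 3])], [2, 0, 0, 0, 0, 1, 2, 0, 0, 0, 0, 1, 2, 0, 0, 0, 0, 1, 2, 0, 0, 0, 0, 1, 1, 1]),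
  ([(183, [4, 5, 4, 3, 4, 2, 3, 4])], [2, 0, 0, 0, 0, 1, 2, 0, 0, 0, 0, 1, 2, 0, 0, 0, 0, 1, 2, 0, 0, 0, 0, 1, 1]),
  ([(197, [4, 5, 3, 4, 1, 2, 1, 2, 3])], [2, 0, 0, 0, 0, 1, 2, 0, 0, 0, 0, 1, 2, 0, 0, 0, 0, 1, 2, 0, 0, 0, 0, 1, 2]),
  ([(214, [3, 4, 5, 4, 2, 3, 4, 2, 3])], [2, 0, 0, 0, 0, 1, 2, 0, 0, 0, 0, 1, 2, 0, 0, 0, 0, 1, 2, 0, 0, 0, 0, 1, 2]),
  ([(267, [4, 5, 4, 3, 4, 1, 2, 3, 4])], [2, 0, 0, 0, 0, 1, 2, 0, 0, 0, 0, 1, 2, 0, 0, 0, 0, 1, 2, 0, 0, 0, 0, 1, 1]),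
  ([(273, [5, 4, 3, 4, 5, 1, 2, 3, 4])], [2, 0, 0, 0, 0, 1, 2, 0, 0, 0, 0, 1, 2, 0, 0, 0, 0, 1, 2, 0, 0, 0, 0, 1, 1]),
  ([(623, [4, 1, 2, 3, 4, 5, 2, 3, 4, 1, 2, 3])], [2, 0, 0, 0, 0, 1, 2, 0, 0, 0, 0, 1, 1, 2, 0, 0, 0, 0, 1, 1, 2, 0, 0, 0, 0, 1]),
  ([(368, [3, 2, 1, 2, 3, 4, 5, 3, 4, 3])], [2, 0, 0, 0, 0, 1, 2, 0, 0, 0, 0, 1, 2, 0, 0, 0, 0, 1, 2, 0, 0, 0, 0, 1]),
  ([(392, [5, 4, 3, 4, 5, 4, 1, 2, 3, 4])], [2, 0, 0, 0, 0, 1, 2, 0, 0, 0, 0, 1, 2, 0, 0, 0, 0, 1, 2, 0, 0, 0, 0, 1, 1]),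
  ([(485, [3, 4, 3, 4, 5, 2, 1, 2, 3, 4, 3])], [2, 0, 0, 0, 0, 1, 2, 0, 0, 0, 0, 1, 2, 0, 0, 0, 0, 1, 2, 0, 0, 0, 0, 1]),
  ([(585, [3, 4, 2, 1, 2, 3, 4, 5, 2, 3, 4])], [2, 0, 0, 0, 0, 1, 2, 0, 0, 0, 0, 1, 2, 0, 0, 0, 0, 1, 1, 2, 0, 0, 0, 0, 1])]
theorem far1_ok : farErr nets iv pw (Nat.pred (Nat.pow 2 2016)) far1 = 0 := by decide +kernel
def far2 : List (List (ℕ × List ℕ) × List ℕ) := [([(5, [3, 4])], [2, 0, 0, 0, 0, 1, 2, 0, 0, 0, 0, 1, 2, 0, 0, 1, 2, 0, 0, 0, 0, 3, 0, 0, 0, 0, 1, 2, 0, 0, 0]),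
  ([(16, [3, 4, 2, 3])], [2, 0, 0, 0, 0, 2, 0, 0, 0, 0, 2, 0, 0, 1, 2, 0, 0, 0, 0, 1, 2, 0, 0, 0, 0, 2, 0, 0, 0, 2]),
  ([(28, [3, 4, 1, 2, 3])], [2, 0, 0, 0, 0, 2, 0, 0, 0, 0, 1, 2, 0, 0, 0, 0, 1, 2, 0, 0, 0, 0, 1, 2, 0, 0, 0, 0]),
  ([(45, [3, 4, 5, 3, 4])], [2, 0, 0, 0, 0, 2, 0, 0, 0, 1, 2, 0, 0, 0, 0, 1, 2, 0, 0, 0, 0, 1, 2, 0, 0, 0, 0, 2]),
  ([(71, [4, 3, 4, 2, 3, 4])], [2, 0, 0, 0, 0, 2, 0, 0, 0, 0, 1, 2, 0, 0, 0, 0, 1, 2, 0, 0, 0, 0, 1, 2, 0, 0, 0, 0]),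
  ([(80, [4, 3, 4, 2, 1, 2, 3])], [2, 0, 0, 0, 0, 1, 2, 0, 0, 0, 0, 1, 2, 0, 0, 0, 1, 0, 2, 0, 0, 0, 0, 1, 2, 0, 0]),
  ([(103, [3, 4, 5, 2, 3, 4, 3])], [2, 0, 0, 0, 0, 1, 2, 0, 0, 0, 0, 1, 2, 0, 0, 0, 0, 1, 2, 0, 0, 0, 0, 1, 1]),
  ([(120, [4, 3, 4, 5, 2, 3, 4])], [2, 0, 0, 0, 0, 1, 2, 0, 0, 0, 0, 1, 2, 0, 0, 0, 0, 1, 2, 0, 0, 0, 0, 1, 1]),
  ([(135, [3, 4, 5, 3, 4, 1, 2, 3])], [2, 0, 0, 0, 0, 1, 2, 0, 0, 0, 0, 1, 2, 0, 0, 0, 0, 1, 2, 0, 0, 0, 0, 1, 1]),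
  ([(157, [3, 4, 5, 1, 2, 3, 4, 3])], [2, 0, 0, 0, 0, 1, 2, 0, 0, 0, 0, 1, 2, 0, 0, 0, 0, 1, 2, 0, 0, 0, 0, 1, 1]),
  ([(184, [3, 4, 5, 3, 4, 2, 3, 4])], [2, 0, 0, 0, 0, 1, 2, 0, 0, 0, 0, 1, 2, 0, 0, 0, 0, 1, 2, 0, 0, 0, 0, 1, 1]),
  ([(204, [3, 4, 5, 3, 4, 2, 1, 2, 3])], [2, 0, 0, 0, 0, 1, 2, 0, 0, 0, 0, 1, 2, 0, 0, 0, 0, 1, 2, 0, 0, 0, 0, 1, 1]),
  ([(216, [4, 3, 4, 5, 2, 3, 4, 2, 3])], [2, 0, 0, 0, 0, 1, 2, 0, 0, 0, 0, 1, 2, 0, 0, 0, 0, 1, 2, 0, 0, 0, 0, 1, 2]),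
  ([(244, [4, 3, 4, 5, 4, 2, 3, 4, 3])], [2, 0, 0, 0, 0, 1, 2, 0, 0, 0, 0, 1, 2, 0, 0, 0, 0, 1, 2, 0, 0, 0, 0, 1, 1]),
  ([(280, [5, 4, 3, 4, 5, 4, 2, 3, 4])], [2, 0, 0, 0, 0, 1, 2, 0, 0, 0, 0, 1, 2, 0, 0, 0, 0, 1, 2, 0, 0, 0, 0, 1, 1]),
  ([(309, [4, 3, 4, 5, 4, 3, 4, 1, 2, 3])], [2, 0, 0, 0, 0, 1, 2, 0, 0, 0, 0, 1, 2, 0, 0, 0, 0, 1, 2, 0, 0, 0, 0, 1, 1]),
  ([(330, [3, 4, 5, 3, 2, 1, 2, 3, 4, 3])], [2, 0, 0, 0, 0, 1, 2, 0, 0, 0, 0, 1, 2, 0, 0, 0, 0, 1, 2, 0, 0, 0, 0, 1, 2]),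
  ([(404, [3, 4, 2, 3, 4, 5, 4, 2, 3, 4])], [2, 0, 0, 0, 0, 1, 2, 0, 0, 0, 0, 1, 2, 0, 0, 0, 0, 1, 2, 0, 0, 0, 0, 1]),
  ([(469, [3, 4, 5, 3, 1, 2, 1, 2, 3, 4, 3])], [2, 0, 0, 0, 0, 1, 2, 0, 0, 0, 0, 1, 2, 0, 0, 0, 0, 1, 2, 0, 0, 0, 0, 1, 2]),
  ([(761, [3, 4, 5, 2, 1, 2, 3, 4, 1, 2, 3, 4])], [2, 0, 0, 0, 0, 1, 2, 0, 0, 0, 0, 1, 2, 0, 0, 0, 0, 1, 1, 2, 0, 0, 0, 0, 1])]
theorem far2_ok : farErr nets iv pw (Nat.pred (Nat.pow 2 2016)) far2 = 0 := by decide +kernel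
def far3 : List (List (ℕ × List ℕ) × List ℕ) := [([(9, [3, 4, 3])], [2, 0, 0, 0, 2, 0, 0, 0, 2, 0, 0, 0, 1, 2, 0, 0, 0, 0, 1, 2, 0, 0, 0, 0, 1, 2, 0, 0, 0]),
  ([(19, [4, 3, 4, 3])], [2, 0, 0, 0, 0, 2, 0, 0, 0, 2, 0, 0, 1, 0, 2, 0, 0, 0, 0, 1, 2, 0, 0, 0, 0, 1, 2, 0, 0]),
  ([(32, [5, 3, 4, 2, 3])], [2, 0, 0, 0, 0, 2, 0, 0, 0, 0, 1, 2, 0, 0, 0, 0, 1, 2, 0, 0, 0, 0, 1, 2, 0, 0, 0, 0]),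
  ([(47, [3, 4, 2, 1, 2, 3])], [2, 0, 0, 0, 0, 2, 0, 0, 0, 0, 1, 2, 0, 0, 0, 0, 1, 2, 0, 0, 0, 0, 1, 2, 0, 0, 0, 0, 2]),
  ([(74, [3, 4, 5, 2, 3, 4])], [2, 0, 0, 0, 0, 2, 0, 0, 0, 0, 1, 2, 0, 0, 0, 0, 1, 2, 0, 0, 0, 0, 1, 2, 0, 0, 0, 0]),
  ([(91, [4, 5, 4, 3, 4, 2, 3])], [2, 0, 0, 0, 0, 1, 2, 0, 0, 0, 0, 1, 2, 0, 0, 0, 0, 1, 2, 0, 0, 0, 0, 1, 1]),
  ([(108, [3, 4, 2, 1, 2, 3, 4])], [2, 0, 0, 0, 0, 1, 2, 0, 0, 0, 0, 1, 2, 0, 0, 0, 0, 1, 2, 0, 0, 0, 0, 1, 1, 1]),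
  ([(122, [4, 3, 4, 5, 4, 3, 4])], [2, 0, 0, 0, 0, 1, 2, 0, 0, 0, 0, 1, 2, 0, 0, 0, 0, 1, 2, 0, 0, 0, 0, 1, 1, 2]),
  ([(142, [3, 4, 5, 2, 3, 4, 2, 3])], [2, 0, 0, 0, 0, 1, 2, 0, 0, 0, 0, 1, 2, 0, 0, 0, 0, 1, 2, 0, 0, 0, 0, 1]),
  ([(160, [4, 5, 3, 4, 2, 3, 4, 3])], [2, 0, 0, 0, 0, 1, 2, 0, 0, 0, 0, 1, 2, 0, 0, 0, 0, 1, 2, 0, 0, 0, 0, 1, 1]),
  ([(186, [4, 3, 4, 5, 4, 2, 3, 4])], [2, 0, 0, 0, 0, 1, 2, 0, 0, 0, 0, 1, 2, 0, 0, 0, 0, 1, 2, 0, 0, 0, 0, 1, 2, 0, 0]),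
  ([(207, [3, 4, 5, 4, 3, 4, 1, 2, 3])], [2, 0, 0, 0, 0, 1, 2, 0, 0, 0, 0, 1, 2, 0, 0, 0, 0, 1, 2, 0, 0, 0, 0, 1, 1, 2]),
  ([(218, [4, 3, 4, 5, 4, 3, 4, 2, 3])], [2, 0, 0, 0, 0, 1, 2, 0, 0, 0, 0, 1, 2, 0, 0, 0, 0, 1, 2, 0, 0, 0, 0, 1, 1]),
  ([(268, [3, 4, 5, 3, 4, 1, 2, 3, 4])], [2, 0, 0, 0, 0, 1, 2, 0, 0, 0, 0, 1, 2, 0, 0, 0, 0, 1, 2, 0, 0, 0, 0, 1, 1]),
  ([(316, [2, 3, 4, 5, 4, 2, 3, 4, 2, 3])], [2, 0, 0, 0, 0, 1, 2, 0, 0, 0, 0, 1, 2, 0, 0, 0, 0, 1, 2, 0, 0, 0, 0, 1, 2]),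
  ([(521, [4, 5, 3, 4, 3, 4, 5, 2, 3, 4, 3])], [2, 0, 0, 0, 0, 1, 2, 0, 0, 0, 0, 1, 2, 0, 0, 0, 0, 1, 2, 0, 0, 0, 0, 1]),
  ([(356, [4, 2, 3, 4, 5, 4, 2, 3, 4, 3])], [2, 0, 0, 0, 0, 1, 2, 0, 0, 0, 0, 1, 2, 0, 0, 0, 0, 1, 2, 0, 0, 0, 0, 1, 1]),
  ([(539, [3, 4, 3, 4, 5, 4, 2, 1, 2, 3, 4])], [2, 0, 0, 0, 0, 1, 2, 0, 0, 0, 0, 1, 2, 0, 0, 0, 0, 1, 1, 2, 0, 0, 0, 0, 1, 1]),
  ([(471, [3, 4, 5, 4, 1, 2, 1, 2, 3, 4, 3])], [2, 0, 0, 0, 0, 1, 2, 0, 0, 0, 0, 1, 2, 0, 0, 0, 0, 1, 1, 2, 0, 0, 0, 0, 1]),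
  ([(1015, [3, 4, 5, 4, 2, 1, 2, 3, 4, 1, 2, 3, 4])], [2, 0, 0, 0, 0, 1, 2, 0, 0, 0, 0, 1, 2, 0, 0, 0, 0, 1, 1, 2, 0, 0, 0, 0, 1, 1])]
theorem far3_ok : farErr nets iv pw (Nat.pred (Nat.pow 2 2016)) far3 = 0 := by decide +kernel
def far4 : List (List (ℕ × List ℕ) × List ℕ) := [([(2, [4]), (206, [3, 4, 5, 2, 3, 4, 1, 2, 3])], [3, 4, 0, 0, 0, 0, 3, 1, 4, 0, 0, 0, 0, 3, 1, 3, 4, 0, 0, 0, 0, 3, 1, 1, 1]),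
  ([(2, [4]), (305, [3, 4, 5, 1, 2, 3, 4, 1, 2, 3])], [3, 4, 0, 0, 0, 0, 3, 1, 3, 4, 0, 0, 0, 0, 3, 1, 3, 4, 0, 0, 0, 0, 3, 3]),
  ([(206, [3, 4, 5, 2, 3, 4, 1, 2, 3]), (305, [3, 4, 5, 1, 2, 3, 4, 1, 2, 3])], [2, 0, 0, 0, 0, 4, 0, 0, 0, 0, 2, 0, 0, 0, 0, 4, 0, 0, 0, 2, 0, 0, 0, 0, 4, 0, 0, 0, 0, 1])]
theorem far4_ok : farErr nets iv pw (Nat.pred (Nat.pow 2 2016)) far4 = 0 := by decide +kernel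

theorem hp : ∀ p ∈ qp, wv M.el p.1 = wv M.el p.2 := M.wv_eq Γ.subtype_injective (by decide) qa

theorem cards : Nat.card Γ = 604800 ∧ Nat.card (M.St 0) = 300 ∧ clW M.el nw = M.St 0 := by
  have h1 := M.card_eq_orb ⊤ 0
  have h2 := M.card_eq_orb (clW M.el nw) 16
  have h3 : 2016 ≤ _ := M.le_ncard_orb (K := ⊤) (fun _ _ => trivial) o0 (M.orb_finite' _ _)
  have h4 : 300 ≤ _ := M.le_ncard_orb (fun _ h => wv_mem_clW _ h) o1 (M.orb_finite' _ _)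
  have h5 := Subgroup.card_le_of_le (M.mem_St_of f1)
  have h6 : 0 < Nat.card ↥(clW M.el nw ⊓ M.St 16) := Nat.card_pos
  have h7 : Nat.card Γ ≤ 604800 := (bound ruleN).2
  rw [top_inf_eq, Subgroup.card_top] at h1
  have h8 : 300 ≤ Nat.card (clW M.el nw) := by nlinarith
  have h9 : Nat.card (M.St 0) ≤ 300 := by nlinarith
  exact ⟨by nlinarith, by omega, Subgroup.eq_of_le_of_card_ge (M.mem_St_of f1) (by omega)⟩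

theorem norm : M.St 0 ≤ Subgroup.normalizer (clW M.el pw : Set Γ) :=
  cards.2.2 ▸ clW_le_normalizer (forall_cons (forall_cons ⟨[0, 0, 0, 0], hp (_, _) (by decide +kernel)⟩ (forall_cons ⟨[0, 0, 0, 0, 1], hp (_, _) (by decide +kernel)⟩ (forall_nil' _))) (forall_cons (forall_cons ⟨[0, 0, 0, 0], hp (_, _) (by decide +kernel)⟩ (forall_cons ⟨[0, 0, 0, 0, 1], hp (_, _) (by decide +kernel)⟩ (forall_nil' _))) (forall_cons (forall_cons ⟨[0], hp (_, _) (by decide +kernel)⟩ (forall_cons ⟨[0, 1, 1, 1, 1], hp (_, _) (by decide +kernel)⟩ (forall_nil' _))) (forall_cons (forall_cons ⟨[0, 1, 1, 1, 1], hp (_, _) (by decide +kernel)⟩ (forall_cons ⟨[1, 1, 1, 1], hp (_, _) (by decide +kernel)⟩ (forall_nil' _))) (forall_nil' _)))))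

theorem pgrp : IsPGroup 5 (clW M.el pw) :=
  isPGroup_clW (forall_cons (forall_cons rfl (forall_cons (hp (_, _) (by decide +kernel)) (forall_nil' _)))
    (forall_cons (forall_cons (hp (_, _) (by decide +kernel)) (forall_cons rfl (forall_nil' _))) (forall_nil' _)))
    (forall_cons ((wv_replicate _ _ 5).symm.trans (hp (_, []) (by decide +kernel)))
    (forall_cons ((wv_replicate _ _ 5).symm.trans (hp (_, []) (by decide +kernel))) (forall_nil' _)))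

theorem core {K : Subgroup Γ} (h : clW M.el pw ≤ K.normalCore) : K = ⊤ := by
  have Q := R.quot K.normalCore [1, 2] (by decide) (h (wv_mem_clW _ List.mem_cons_self))
  rw [eq_top_iff, ← top]
  exact (clL_le (forall_cons (mem_of_quot_bot _ (SuzJN.goal2 Q ⊥ (forall_nil _))) (forall_cons (mem_of_quot_bot _ (SuzJN.goal3 Q ⊥ (forall_nil _))) (forall_cons (mem_of_quot_bot _ (SuzJN.goal4 Q ⊥ (forall_nil _))) (forall_cons (mem_of_quot_bot _ (SuzJN.goal5 Q ⊥ (forall_nil _))) (forall_nil' _)))))).trans K.normalCore_le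

theorem near {K : Subgroup Γ} {j : ℕ} {s t : List ℕ} (h1 : orbErr nets nw s j 11 15 = 0)
    (h2 : orbEqErr nets pw t j 11 5 = 0) (hj : j ∈ M.orb K 0)
    (hX : M.orb K 0 ⊆ insert 0 (M.orb (clW M.el pw) j)) : Nat.card K ≤ 720 := by
  have a1 : (M.orb K 0).ncard ≤ 6 := (Set.ncard_le_ncard hX ((M.orb_finite' _ _).insert _)).trans
    ((Set.ncard_insert_le _ _).trans (by rw [M.ncard_orb_eq h2]))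
  have a2 : (M.orb (K ⊓ M.St 0) j).ncard ≤ 6 := (Set.ncard_le_ncard
    ((Model.orb_mono inf_le_left j).trans (Model.orb_eq_of_mem hj).le) (M.orb_finite' _ _)).trans a1
  have a3 : 15 ≤ _ := M.le_ncard_orb (K := M.St 0) (fun _ h => M.mem_St_of f1 (wv_mem_clW _ h)) h1
    (M.orb_finite' _ _)
  have a4 := M.card_eq_orb (M.St 0) j
  have a5 := Subgroup.card_le_of_le (inf_le_inf_right (M.St j) (inf_le_right : K ⊓ M.St 0 ≤ _))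
  rw [cards.2.1] at a4
  have a6 : Nat.card ↥(M.St 0 ⊓ M.St j) ≤ 20 := by nlinarith
  rw [M.card_eq_orb K 0, M.card_eq_orb (K ⊓ M.St 0) j]
  exact (Nat.mul_le_mul a1 (Nat.mul_le_mul a2 (a5.trans a6))).trans (by norm_num)

theorem cover : part.all (fun e => [0, 2, 206, 305].contains e.1 ||
    (far0 ++ far1 ++ far2 ++ far3).any fun f => f.1.map Prod.fst == [e.1]) = true := by decide +kernel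

theorem ovr {K : Subgroup Γ} (hK : clW M.el pw ≤ K) : K = ⊤ ∨ Nat.card K ≤ 720 := by
  refine or_iff_not_imp_left.2 fun hne => ?_
  have hf : ∀ {l}, l.all (fun e => allLt (e.1.map Prod.snd)) = true →
      farErr nets iv pw (Nat.pred (Nat.pow 2 2016)) l = 0 → ∀ e ∈ l, ¬ ∀ u ∈ e.1, u.1 ∈ M.orb K 0 :=
    fun h1 h2 e he h => hne (core (Model.far_spec hgen (by decide) R.hinv norm hK h1 h2 e he h))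
  have h1 : ∀ x ∈ M.orb K 0, x = 0 ∨ ∃ j ∈ [2, 206, 305], j ∈ M.orb K 0 ∧ x ∈ M.orb (clW M.el pw) j := by
    intro x hx
    rcases (Model.part_spec (M := M) (fun _ h => wv_mem_clW _ h) 0 part_ok).1 x
      (bits_full _ ▸ M.orb_subset_lt hgen K (by decide) hx) with e | ⟨e, he, h⟩
    · simp [bits] at e
    have h2 : e.1 ∈ M.orb K 0 := by
      obtain ⟨g, hg, rfl⟩ := h
      exact (Model.apply_mem_orb (hK hg)).1 hx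
    have h3 := List.all_eq_true.1 cover e he
    simp only [Bool.or_eq_true, List.contains_iff_mem, List.any_eq_true, beq_iff_eq] at h3
    rcases h3 with h3 | ⟨f, h3, h4⟩
    · rcases List.mem_cons.1 h3 with h3 | h3
      · obtain ⟨g, hg, rfl⟩ := h
        exact Or.inl (h3 ▸ M.mem_St_of f2 hg)
      · exact Or.inr ⟨_, h3, h2, h⟩
    · refine absurd (fun u hu => ?_) (forall_mem_append_of (forall_mem_append_of (forall_mem_append_of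
        (hf (by decide +kernel) far0_ok) (hf (by decide +kernel) far1_ok)) (hf (by decide +kernel) far2_ok))
        (hf (by decide +kernel) far3_ok) f h3)
      have h5 : u.1 ∈ [e.1] := h4 ▸ List.mem_map_of_mem (f := Prod.fst) hu
      exact List.mem_singleton.1 h5 ▸ h2
  have h2 := hf (by decide +kernel) far4_ok
  simp only [far4, List.forall_mem_cons, List.not_mem_nil, IsEmpty.forall_iff, implies_true,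
    and_true] at h2
  simp only [List.mem_cons, List.not_mem_nil, or_false, exists_eq_or_imp, exists_eq_left] at h1
  by_cases a : 2 ∈ M.orb K 0
  · exact near on2 op2 a fun x hx => by have := h1 x hx; tauto
  by_cases b : 206 ∈ M.orb K 0
  · exact near on206 op206 b fun x hx => by have := h1 x hx; tauto
  by_cases c : 305 ∈ M.orb K 0
  · exact near on305 op305 c fun x hx => by have := h1 x hx; tauto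
  have h3 : K ≤ M.St 0 := fun g hg => by have := h1 _ ⟨g, hg, rfl⟩; tauto
  exact (Subgroup.card_le_of_le h3).trans (by rw [cards.2.1]; norm_num)

/-- a proper subgroup of order divisible by 25 is small -/
theorem main {G : Type*} [Group G] {e : ℕ → G} (Q : RuleOK e rels iv)
    (hc : Nat.card (clL e [2, 3, 4, 5]) = 604800) {K : Subgroup G} (hK : K ≤ clL e [2, 3, 4, 5])
    (h : 25 ∣ Nat.card K) : K = clL e [2, 3, 4, 5] ∨ Nat.card K ≤ 720 := by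
  obtain ⟨f, -⟩ := exists_equiv_of_bound (bound (Q.prod ruleN)) hc.ge cards.1.ge
  have h1 : Nat.card ((K.subgroupOf _).map f.toMonoidHom) = Nat.card K :=
    (Subgroup.card_map_of_injective f.injective).trans
      (Nat.card_congr (Subgroup.subgroupOfEquivOfLe hK).toEquiv)
  obtain ⟨g, hg⟩ := exists_le_cj (K := (K.subgroupOf _).map f.toMonoidHom) (by norm_num) (fun h2 => by
    have h3 := Nat.mul_dvd_mul h2 (h1 ▸ h)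
    rw [Subgroup.index_mul_card, cards.1] at h3
    exact absurd h3 (by norm_num)) pgrp
  have h2 := (card_cj _ g).trans h1
  refine (ovr hg).imp (fun h3 => ?_) (h2 ▸ ·)
  have : Finite (clL e [2, 3, 4, 5]) := (bound Q).1
  exact Subgroup.eq_of_le_of_card_ge hK (by rw [← h2, h3, Subgroup.card_top, cards.1, hc])

end Cfsg.Agent.H58.SuzJ
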